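import Mathlib
import Cfsg.Agent.Lib.Helper27.ConjSub
import Cfsg.Agent.Lib.Helper2.KleinMk
import Cfsg.Agent.S0228

set_option autoImplicit false

/-! Recognising `A₄`: a four-group together with an element of order three permuting its
involutions cyclically. -/

namespace Cfsg.Agent.Lib.Helper27.A4Recog

open Cfsg.Agent.Lib.Helper27.ConjSub Pointwise

theorem exists_A4 {G : Type*} [Group G] [Finite G] (x₁ x₂ c : G) (h1 : x₁ * x₁ = 1)
    (h2 : x₂ * x₂ = 1) (hx1 : x₁ ≠ 1) (hx2 : x₂ ≠ 1) (hne : x₁ ≠ x₂) (hc : x₁ * x₂ = x₂ * x₁)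
    (hc3 : c * c * c = 1) (hc1 : c * x₁ * c⁻¹ = x₂) (hc2 : c * x₂ * c⁻¹ = x₁ * x₂) :
    ∃ H : Subgroup G, Nonempty (H ≃* alternatingGroup (Fin 4)) := by
  set V : Subgroup G := Subgroup.closure ({x₁, x₂} : Set G) with hV
  have hVset : (V : Set G) = {1, x₁, x₂, x₁ * x₂} :=
    Cfsg.Agent.Lib.Helper2.coe_closure_commuting_involutions h1 h2 hc
  have hmemV : ∀ v, v ∈ V ↔ v = 1 ∨ v = x₁ ∨ v = x₂ ∨ v = x₁ * x₂ := by
    intro v
    rw [← SetLike.mem_coe, hVset]
    simp
  have ho1 : orderOf x₁ = 2 := orderOf_eq_prime (by rw [pow_two, h1]) hx1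
  have ho2 : orderOf x₂ = 2 := orderOf_eq_prime (by rw [pow_two, h2]) hx2
  have hK := Cfsg.Agent.Lib.Helper2.isKleinFour_closure ho1 ho2 hc hne
  have hcardV : Nat.card V = 4 := hK.card_four
  have hVsq : ∀ v ∈ V, v * v = 1 := by
    intro v hv
    rcases (hmemV v).1 hv with rfl | rfl | rfl | rfl
    · simp
    · exact h1
    · exact h2
    · rw [mul_assoc, ← mul_assoc x₂, ← hc, mul_assoc, h2, mul_one, h1]
  have hcne : c ≠ 1 := by
    rintro rfl
    apply hne
    simpa using hc1
  have hoc : orderOf c = 3 := orderOf_eq_prime (by rw [pow_succ, pow_two, hc3]) hcne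
  set C : Subgroup G := Subgroup.zpowers c with hC
  have hcardC : Nat.card C = 3 := by rw [hC, Nat.card_zpowers, hoc]
  have hcN : c ∈ Subgroup.normalizer (V : Set G) := by
    rw [Subgroup.mem_normalizer_iff_map_conj_eq]
    have := map_conj_closure_pair c x₁ x₂
    rw [hc1, hc2] at this
    refine this.trans ?_
    apply le_antisymm
    · rw [Subgroup.closure_le]
      rintro y (rfl | rfl)
      · exact (hmemV _).2 (by simp)
      · exact (hmemV _).2 (by simp)
    · rw [hV, Subgroup.closure_le]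
      rintro y (rfl | rfl)
      · have hm : (y * x₂) * x₂ ∈ Subgroup.closure ({x₂, y * x₂} : Set G) :=
          Subgroup.mul_mem _ (Subgroup.subset_closure (by simp)) (Subgroup.subset_closure (by simp))
        rwa [mul_assoc, h2, mul_one] at hm
      · exact Subgroup.subset_closure (by simp)
  have hCN : C ≤ Subgroup.normalizer (V : Set G) := by
    rw [hC, Subgroup.zpowers_le]; exact hcN
  set H : Subgroup G := C ⊔ V with hH
  have hHset : (H : Set G) = (C : Set G) * (V : Set G) :=
    Subgroup.coe_mul_of_left_le_normalizer_right C V hCN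
  have hle : Nat.card H ≤ 12 := by
    have h := Set.natCard_mul_le (s := (C : Set G)) (t := (V : Set G))
    rw [← hHset] at h
    calc Nat.card H ≤ Nat.card C * Nat.card V := h
      _ = 12 := by rw [hcardC, hcardV]
  have hd3 : 3 ∣ Nat.card H := hcardC ▸ Subgroup.card_dvd_of_le (le_sup_left : C ≤ H)
  have hd4 : 4 ∣ Nat.card H := hcardV ▸ Subgroup.card_dvd_of_le (le_sup_right : V ≤ H)
  have hpos : 0 < Nat.card H := Nat.card_pos
  have hcardH : Nat.card H = 12 := by omega
  refine ⟨H, Cfsg.Agent.S0228.result hcardH ?_⟩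
  rintro ⟨z, hz⟩ hoz hzc
  have hzz : z * z = 1 := by
    have := pow_orderOf_eq_one (⟨z, hz⟩ : H)
    rw [hoz, pow_two] at this
    exact congrArg Subtype.val this
  have hz1 : z ≠ 1 := by
    rintro rfl
    have : (⟨1, hz⟩ : H) = 1 := rfl
    rw [this, orderOf_one] at hoz
    omega
  have hzcomm : c * z = z * c := by
    rw [Subgroup.mem_center_iff] at hzc
    have := hzc ⟨c, (le_sup_left : C ≤ H) (Subgroup.mem_zpowers c)⟩
    exact congrArg Subtype.val this
  have hz' : z ∈ (C : Set G) * (V : Set G) := hHset ▸ hz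
  obtain ⟨d, hd, v, hv, rfl⟩ := Set.mem_mul.1 hz'
  have hd3 : d * d * d = 1 := by
    have : d ^ 3 = 1 := by
      have := pow_card_eq_one' (G := C) (x := ⟨d, hd⟩)
      rw [hcardC] at this
      exact congrArg Subtype.val this
    rwa [pow_succ, pow_two] at this
  have hdv : d⁻¹ * v * d ∈ V := by
    have := (Subgroup.mem_normalizer_iff.1 (Subgroup.inv_mem _ (hCN hd)) v).1 hv
    simpa using this
  have hdd : d * d ∈ V := by
    have : d * d = ((d⁻¹ * v * d) * v)⁻¹ := by
      rw [eq_inv_iff_mul_eq_one]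
      rw [← hzz]; group
    rw [this]
    exact Subgroup.inv_mem _ (Subgroup.mul_mem _ hdv hv)
  have hd1 : d = 1 := by
    have h4 := hVsq _ hdd
    calc d = (d * d * d) * d := by rw [hd3, one_mul]
      _ = (d * d) * (d * d) := by group
      _ = 1 := h4
  subst hd1
  rw [one_mul] at hz1 hzcomm
  have hconj : c * v * c⁻¹ = v := by rw [hzcomm]; group
  rcases (hmemV v).1 hv with rfl | rfl | rfl | rfl
  · exact hz1 rfl
  · exact hne (hconj.symm.trans hc1)
  · rw [hc2] at hconj
    exact hx1 (mul_eq_right.1 hconj)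
  · have : c * (x₁ * x₂) * c⁻¹ = (c * x₁ * c⁻¹) * (c * x₂ * c⁻¹) := by group
    rw [this, hc1, hc2, ← mul_assoc, ← hc, mul_assoc, h2, mul_one] at hconj
    exact hx2 (left_eq_mul.1 hconj)

end Cfsg.Agent.Lib.Helper27.A4Recog
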