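import Mathlib

set_option autoImplicit false

/-! The number of conjugacy classes of a "dicyclic-like" group. -/

namespace Cfsg.Agent.Lib.Helper27.DicClasses

theorem card_conjClasses {N : Type*} [Group N] [Finite N] (T : Subgroup N) (z : N)
    (hz1 : z ≠ 1) (hzT : z ∈ T) (hzz : z * z = 1)
    (hidx : T.index = 2) (hcomm : ∀ x ∈ T, ∀ y ∈ T, x * y = y * x)
    (hinv : ∀ h, h ∉ T → ∀ x ∈ T, h * x * h⁻¹ = x⁻¹)
    (hsq : ∀ x ∈ T, x * x = 1 → x = 1 ∨ x = z) :
    2 * Nat.card (ConjClasses N) = Nat.card T + 6 := by
  classical
  have := Fintype.ofFinite N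
  set n := Nat.card T with hn
  have hnpos : 0 < n := Nat.card_pos
  have hN : Nat.card N = 2 * n := by rw [← T.card_mul_index, hidx, mul_comm]
  have hzinv : z⁻¹ = z := inv_eq_of_mul_eq_one_left hzz
  have hzc : ∀ y, Commute z y := by
    intro y
    by_cases hy : y ∈ T
    · exact hcomm z hzT y hy
    · have := hinv y hy z hzT
      rw [hzinv, mul_inv_eq_iff_eq_mul] at this
      exact this.symm
  let c : N → ℕ := fun x => Nat.card {y // Commute x y}
  have hsum : Nat.card {p : N × N // Commute p.1 p.2} = ∑ x, c x := by
    rw [← Nat.card_sigma]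
    exact Nat.card_congr ⟨fun p => ⟨p.1.1, p.1.2, p.2⟩, fun s => ⟨(s.1, s.2.1), s.2.2⟩,
      fun _ => rfl, fun _ => rfl⟩
  have hc1 : ∀ x, (x = 1 ∨ x = z) → c x = 2 * n := by
    intro x hx
    rw [← hN]
    apply Nat.card_congr
    apply Equiv.subtypeUnivEquiv
    intro y
    rcases hx with rfl | rfl
    · exact Commute.one_left y
    · exact hzc y
  have hc2 : ∀ x ∈ T, ¬ (x = 1 ∨ x = z) → c x = n := by
    intro x hx hne
    apply Nat.card_congr
    apply Equiv.subtypeEquivRight
    intro y
    constructor
    · intro hy
      by_contra hyT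
      have h1 := hinv y hyT x hx
      rw [mul_inv_eq_iff_eq_mul, ← hy.eq] at h1
      have h2 : x = x⁻¹ := mul_right_cancel h1
      apply hne
      apply hsq x hx
      nth_rewrite 1 [h2]
      simp
    · intro hy
      exact hcomm x hx y hy
  have hc3 : ∀ x, x ∉ T → c x = 4 := by
    intro x hx
    have hT2 : ∀ y ∈ T, Commute x y → y = 1 ∨ y = z := by
      intro y hy hc
      apply hsq y hy
      have h1 := hinv x hx y hy
      rw [mul_inv_eq_iff_eq_mul, hc.eq] at h1
      have h2 : y = y⁻¹ := mul_right_cancel h1
      nth_rewrite 1 [h2]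
      simp
    have hset : ∀ y, Commute x y ↔ y ∈ ({1, z, x, x * z} : Finset N) := by
      intro y
      simp only [Finset.mem_insert, Finset.mem_singleton]
      constructor
      · intro hc
        by_cases hy : y ∈ T
        · rcases hT2 y hy hc with h | h
          · exact Or.inl h
          · exact Or.inr (Or.inl h)
        · have hmem : x⁻¹ * y ∈ T := by
            rw [Subgroup.mul_mem_iff_of_index_two hidx, Subgroup.inv_mem_iff]
            exact ⟨fun h => absurd h hx, fun h => absurd h hy⟩
          have hc' : Commute x (x⁻¹ * y) := (Commute.refl x).inv_right.mul_right hc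
          rcases hT2 _ hmem hc' with h | h
          · right; right; left
            rw [inv_mul_eq_one] at h
            exact h.symm
          · right; right; right
            rw [inv_mul_eq_iff_eq_mul] at h
            exact h
      · rintro (rfl | rfl | rfl | rfl)
        · exact Commute.one_right x
        · exact (hzc x).symm
        · exact Commute.refl _
        · exact (Commute.refl x).mul_right (hzc x).symm
    have hcard : ({1, z, x, x * z} : Finset N).card = 4 := by
      have hxz : x * z ∉ T := by
        rw [Subgroup.mul_mem_iff_of_index_two hidx]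
        intro h
        exact hx (h.mpr hzT)
      rw [Finset.card_insert_of_notMem, Finset.card_insert_of_notMem, Finset.card_insert_of_notMem,
        Finset.card_singleton]
      · simp only [Finset.mem_singleton]
        intro h
        apply hz1
        have : x * 1 = x * z := by rw [mul_one]; exact h
        exact (mul_left_cancel this).symm
      · simp only [Finset.mem_insert, Finset.mem_singleton, not_or]
        refine ⟨?_, ?_⟩
        · rintro rfl; exact hx hzT
        · intro h; rw [← h] at hxz; exact hxz hzT
      · simp only [Finset.mem_insert, Finset.mem_singleton, not_or]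
        refine ⟨hz1.symm, ?_, ?_⟩
        · rintro rfl; exact hx T.one_mem
        · intro h; rw [← h] at hxz; exact hxz T.one_mem
    show Nat.card {y // Commute x y} = 4
    rw [Nat.card_eq_fintype_card, Fintype.card_of_subtype _ (fun y => (hset y).symm), hcard]
  have hTc : (Finset.univ.filter (· ∈ T)).card = n := by
    rw [hn, Nat.card_eq_fintype_card, Fintype.card_subtype]
  have hTc' : (Finset.univ.filter (fun x => ¬ x ∈ T)).card = n := by
    have h1 := Finset.card_filter_add_card_filter_not (s := (Finset.univ : Finset N)) (· ∈ T)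
    rw [hTc, Finset.card_univ, ← Nat.card_eq_fintype_card, hN] at h1
    omega
  have hS1 : ∑ x ∈ Finset.univ.filter (· ∈ T), c x = n * n + 2 * n := by
    have h1 : ∀ x ∈ Finset.univ.filter (· ∈ T), c x = n + (if x = 1 ∨ x = z then n else 0) := by
      intro x hx
      have hxT : x ∈ T := (Finset.mem_filter.1 hx).2
      by_cases h : x = 1 ∨ x = z
      · rw [if_pos h, hc1 x h]; ring
      · rw [if_neg h, hc2 x hxT h]; ring
    rw [Finset.sum_congr rfl h1, Finset.sum_add_distrib, Finset.sum_const, hTc, smul_eq_mul,
      ← Finset.sum_filter, Finset.sum_const, smul_eq_mul]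
    congr 2
    have : (Finset.univ.filter (· ∈ T)).filter (fun x => x = 1 ∨ x = z) = {1, z} := by
      ext x
      simp only [Finset.mem_filter, Finset.mem_univ, true_and, Finset.mem_insert,
        Finset.mem_singleton]
      constructor
      · exact fun h => h.2
      · rintro (rfl | rfl)
        · exact ⟨T.one_mem, Or.inl rfl⟩
        · exact ⟨hzT, Or.inr rfl⟩
    rw [this, Finset.card_pair hz1.symm]
  have hS2 : ∑ x ∈ Finset.univ.filter (fun x => ¬ x ∈ T), c x = n * 4 := by
    rw [Finset.sum_congr rfl (fun x hx => hc3 x (Finset.mem_filter.1 hx).2), Finset.sum_const, hTc',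
      smul_eq_mul]
  have htot := card_comm_eq_card_conjClasses_mul_card N
  rw [hsum, ← Finset.sum_filter_add_sum_filter_not _ (· ∈ T), hS1, hS2, hN] at htot
  apply Nat.eq_of_mul_eq_mul_right hnpos
  nlinarith

end Cfsg.Agent.Lib.Helper27.DicClasses
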