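import Cfsg.Agent.Lib.Helper27.Extra4
import Cfsg.Agent.Lib.Helper3.Dih

set_option autoImplicit false

/-! The subgroup `X = ⟨Q, P⟩` generated by a pair of conjugate large extraspecial subgroups. -/

namespace Cfsg.Agent.Lib.Helper27

open Cfsg

variable {G : Type*} [Group G]

theorem four_relIndex' [Finite G] {z y q r : G} (hz : z * z = 1) (hy : y * y = 1) (hc : y * z = z * y)
    (hz1 : z ≠ 1) (hy1 : y ≠ 1) (hzy : z ≠ y)
    (hqz : q * z * q⁻¹ = z) (hqy : q * y * q⁻¹ = z * y) (hrz : r * z * r⁻¹ = z * y) (hry : r * y * r⁻¹ = y)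
    (L : Subgroup G) (hL : L ≤ Subgroup.normalizer (fourSub z y hz hy hc : Set G)) (hqL : q ∈ L) (hrL : r ∈ L) :
    (Subgroup.centralizer (fourSub z y hz hy hc : Set G)).relIndex L = 6 := by
  have hle := card_mulAut_fourSub_le hz hy hc hz1 hy1 hzy
  obtain ⟨V, hV⟩ : ∃ V, V = fourSub z y hz hy hc := ⟨_, rfl⟩
  rw [← hV] at hle hL ⊢
  have hmem : ∀ x, x ∈ V ↔ x = 1 ∨ x = z ∨ x = y ∨ x = z * y := fun x => by rw [hV]; exact Iff.rfl
  have hzV : z ∈ V := (hmem z).2 (Or.inr (Or.inl rfl))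
  have hyV : y ∈ V := (hmem y).2 (Or.inr (Or.inr (Or.inl rfl)))
  obtain ⟨ψ, hψ⟩ : ∃ ψ : L →* MulAut V, ψ = V.normalizerMonoidHom.comp (Subgroup.inclusion hL) := ⟨_, rfl⟩
  have hkerψ : ψ.ker = (Subgroup.centralizer (V : Set G)).subgroupOf L := by
    ext n
    rw [hψ, MonoidHom.mem_ker, MonoidHom.comp_apply, ← MonoidHom.mem_ker, Subgroup.normalizerMonoidHom_ker,
      Subgroup.mem_subgroupOf, Subgroup.mem_subgroupOf]
    rfl
  rw [Subgroup.relIndex, ← hkerψ, Subgroup.index_ker]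
  have hker : ∀ n : L, (n : G) * z * (n : G)⁻¹ = z → (n : G) * y * (n : G)⁻¹ = y → ψ n = 1 := by
    intro n h1 h2
    rw [← MonoidHom.mem_ker, hkerψ, Subgroup.mem_subgroupOf, Subgroup.mem_centralizer_iff]
    have e1 : z * (n : G) = n * z := by
      calc z * (n : G) = ((n : G) * z * (n : G)⁻¹) * n := by rw [h1]
        _ = n * z := by group
    have e2 : y * (n : G) = n * y := by
      calc y * (n : G) = ((n : G) * y * (n : G)⁻¹) * n := by rw [h2]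
        _ = n * y := by group
    intro x hx
    rcases (hmem x).1 hx with rfl | rfl | rfl | rfl
    · simp
    · exact e1
    · exact e2
    · rw [mul_assoc, e2, ← mul_assoc, e1, mul_assoc]
  have hker' : ∀ n : L, ψ n = 1 → (n : G) * z * (n : G)⁻¹ = z ∧ (n : G) * y * (n : G)⁻¹ = y := by
    intro n h
    rw [← MonoidHom.mem_ker, hkerψ, Subgroup.mem_subgroupOf, Subgroup.mem_centralizer_iff] at h
    exact ⟨by rw [← h z hzV]; group, by rw [← h y hyV]; group⟩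
  have hzzy : z * (z * y) = y := by rw [← mul_assoc, hz, one_mul]
  have h2 : 2 ∣ Nat.card ψ.range := by
    have ho : orderOf (ψ ⟨q, hqL⟩) = 2 := by
      apply orderOf_eq_prime
      · rw [← map_pow]
        apply hker
        · show (q ^ 2) * z * (q ^ 2)⁻¹ = z
          calc (q ^ 2) * z * (q ^ 2)⁻¹ = q * (q * z * q⁻¹) * q⁻¹ := by rw [pow_two]; group
            _ = z := by rw [hqz, hqz]
        · show (q ^ 2) * y * (q ^ 2)⁻¹ = y
          calc (q ^ 2) * y * (q ^ 2)⁻¹ = q * (q * y * q⁻¹) * q⁻¹ := by rw [pow_two]; group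
            _ = q * (z * y) * q⁻¹ := by rw [hqy]
            _ = (q * z * q⁻¹) * (q * y * q⁻¹) := by group
            _ = y := by rw [hqz, hqy, hzzy]
      · intro h
        have := (hker' _ h).2
        rw [show ((⟨q, hqL⟩ : L) : G) = q from rfl, hqy] at this
        exact hz1 (mul_eq_right.1 this)
    rw [← ho]
    exact Subgroup.orderOf_dvd_natCard _ ⟨_, rfl⟩
  have h3 : 3 ∣ Nat.card ψ.range := by
    have hnN : q * r ∈ L := Subgroup.mul_mem _ hqL hrL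
    have hnz : (q * r) * z * (q * r)⁻¹ = y := by
      calc (q * r) * z * (q * r)⁻¹ = q * (r * z * r⁻¹) * q⁻¹ := by group
        _ = q * (z * y) * q⁻¹ := by rw [hrz]
        _ = (q * z * q⁻¹) * (q * y * q⁻¹) := by group
        _ = y := by rw [hqz, hqy, hzzy]
    have hny : (q * r) * y * (q * r)⁻¹ = z * y := by
      calc (q * r) * y * (q * r)⁻¹ = q * (r * y * r⁻¹) * q⁻¹ := by group
        _ = z * y := by rw [hry, hqy]
    obtain ⟨n, hn⟩ : ∃ n, n = q * r := ⟨_, rfl⟩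
    rw [← hn] at hnN hnz hny
    have hnzy : n * (z * y) * n⁻¹ = z := by
      calc n * (z * y) * n⁻¹ = (n * z * n⁻¹) * (n * y * n⁻¹) := by group
        _ = y * (z * y) := by rw [hnz, hny]
        _ = z := by rw [← mul_assoc, hc, mul_assoc, hy, mul_one]
    have : Fact (Nat.Prime 3) := ⟨Nat.prime_three⟩
    have ho : orderOf (ψ ⟨n, hnN⟩) = 3 := by
      apply orderOf_eq_prime
      · rw [← map_pow]
        apply hker
        · show (n ^ 3) * z * (n ^ 3)⁻¹ = z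
          calc (n ^ 3) * z * (n ^ 3)⁻¹ = n * (n * (n * z * n⁻¹) * n⁻¹) * n⁻¹ := by
                rw [pow_succ, pow_two]; group
            _ = z := by rw [hnz, hny, hnzy]
        · show (n ^ 3) * y * (n ^ 3)⁻¹ = y
          calc (n ^ 3) * y * (n ^ 3)⁻¹ = n * (n * (n * y * n⁻¹) * n⁻¹) * n⁻¹ := by
                rw [pow_succ, pow_two]; group
            _ = y := by rw [hny, hnzy, hnz]
      · intro h
        have := (hker' _ h).1
        rw [show ((⟨n, hnN⟩ : L) : G) = n from rfl, hnz] at this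
        exact hzy this.symm
    rw [← ho]
    exact Subgroup.orderOf_dvd_natCard _ ⟨_, rfl⟩
  have h6 : 6 ∣ Nat.card ψ.range :=
    Nat.Coprime.mul_dvd_of_dvd_of_dvd (by norm_num) h2 h3
  have hle' : Nat.card ψ.range ≤ 6 :=
    (Nat.card_le_card_of_injective _ Subtype.val_injective).trans hle
  have hpos : 0 < Nat.card ψ.range := Nat.card_pos
  exact le_antisymm hle' (Nat.le_of_dvd hpos h6)

/-- `S₃` has no nontrivial normal 2-subgroup. -/
theorem perm3_normal_two_eq_bot (N : Subgroup (Equiv.Perm (Fin 3))) (hN : N.Normal) (h2 : IsPGroup 2 N) :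
    N = ⊥ := by
  rw [eq_bot_iff]
  intro n hn
  rw [Subgroup.mem_bot]
  by_contra hne
  have key : ∀ n : Equiv.Perm (Fin 3), n ≠ 1 → ∃ g : Equiv.Perm (Fin 3),
      (n ^ 3 = 1) ∨ ((n * (g * n * g⁻¹)) ≠ 1 ∧ (n * (g * n * g⁻¹)) ^ 3 = 1) := by decide +kernel
  have fin : ∀ m ∈ N, m ^ 3 = 1 → m = 1 := by
    intro m hm h3
    obtain ⟨k, hk⟩ := h2 ⟨m, hm⟩
    have hk' : m ^ (2 ^ k) = 1 := by
      have := congrArg Subtype.val hk
      simpa using this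
    have hcop : Nat.Coprime (2 ^ k) 3 := Nat.Coprime.pow_left _ (by norm_num)
    have := orderOf_dvd_of_pow_eq_one hk'
    have h' := orderOf_dvd_of_pow_eq_one h3
    have h1 : orderOf m ∣ 1 := by
      rw [← hcop]; exact Nat.dvd_gcd this h'
    exact orderOf_eq_one_iff.1 (Nat.dvd_one.1 h1)
  obtain ⟨g, hg | ⟨hg1, hg2⟩⟩ := key n hne
  · exact hne (fin n hn hg)
  · exact hg1 (fin _ (N.mul_mem hn (hN.conj_mem n hn g)) hg2)

variable {Q P : Subgroup G} {z y : G}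

theorem Pair.mem_centralizer_V (h : Pair Q P z y) {c : G} :
    c ∈ Subgroup.centralizer ((Subgroup.closure ({z, y} : Set G) : Subgroup G) : Set G) ↔
      c * z = z * c ∧ c * y = y * c := by
  rw [Subgroup.mem_centralizer_iff]
  constructor
  · intro hc
    exact ⟨(hc z (h.mem_V.2 (Or.inr (Or.inl rfl)))).symm, (hc y (h.mem_V.2 (Or.inr (Or.inr (Or.inl rfl))))).symm⟩
  · rintro ⟨h1, h2⟩ x hx
    rcases h.mem_V.1 hx with rfl | rfl | rfl | rfl
    · simp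
    · exact h1.symm
    · exact h2.symm
    · rw [mul_assoc, ← h2, ← mul_assoc, ← h1, mul_assoc]

theorem Pair.Q_comm_CV (h : Pair Q P z y) {q c : G} (hq : q ∈ Q) (hcz : c * z = z * c) (hcy : c * y = y * c) :
    q * c * q⁻¹ * c⁻¹ ∈ Q ⊓ Subgroup.centralizer {y} := by
  refine Subgroup.mem_inf.2 ⟨?_, ?_⟩
  · have e : q * c * q⁻¹ * c⁻¹ = q * (c * q⁻¹ * c⁻¹) := by group
    rw [e]; exact Q.mul_mem hq (h.hQ.nor c hcz _ (Q.inv_mem hq))
  · rw [Subgroup.mem_centralizer_singleton_iff]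
    obtain ⟨v, hv⟩ : ∃ v, v = q⁻¹ * y * q := ⟨_, rfl⟩
    have hcv : c * v = v * c := by
      have e : v = (q⁻¹ * y * q⁻¹⁻¹ * y⁻¹) * y := by rw [hv]; group
      rcases h.hQ.comm q⁻¹ (Q.inv_mem hq) y h.yQ with h1 | h1
      · rw [e, h1, one_mul]; exact hcy
      · rw [e, h1, ← mul_assoc, hcz, mul_assoc, hcy, mul_assoc]
    have hcy' : c⁻¹ * y * c = y := by rw [mul_assoc, ← hcy]; group
    have hcv' : c * v * c⁻¹ = v := by rw [hcv]; group
    have e1 : (q * c * q⁻¹ * c⁻¹) * y * (q * c * q⁻¹ * c⁻¹)⁻¹ = y := by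
      calc (q * c * q⁻¹ * c⁻¹) * y * (q * c * q⁻¹ * c⁻¹)⁻¹
          = q * (c * (q⁻¹ * (c⁻¹ * y * c) * q) * c⁻¹) * q⁻¹ := by group
        _ = q * (c * v * c⁻¹) * q⁻¹ := by rw [hcy', hv]
        _ = q * v * q⁻¹ := by rw [hcv']
        _ = y := by rw [hv]; group
    calc (q * c * q⁻¹ * c⁻¹) * y
        = ((q * c * q⁻¹ * c⁻¹) * y * (q * c * q⁻¹ * c⁻¹)⁻¹) * (q * c * q⁻¹ * c⁻¹) := by group
      _ = y * (q * c * q⁻¹ * c⁻¹) := by rw [e1]

theorem Pair.Q_le_normalizer_R [Finite G] (h : Pair Q P z y) :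
    Q ≤ Subgroup.normalizer
      (((P ⊓ Subgroup.centralizer {z}) ⊔ (Q ⊓ Subgroup.centralizer {y}) : Subgroup G) : Set G) := by
  intro q hq
  apply mem_normalizer_of_conj_mem_finite
  intro c hc
  have hcz := Subgroup.mem_centralizer_singleton_iff.1 (h.R_le_centralizer_z hc)
  have hcy := Subgroup.mem_centralizer_singleton_iff.1 (h.R_le_centralizer_y hc)
  have e : q * c * q⁻¹ = (q * c * q⁻¹ * c⁻¹) * c := by group
  rw [e]; exact Subgroup.mul_mem _ (Subgroup.mem_sup_right (h.Q_comm_CV hq hcz hcy)) hc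

theorem Pair.P_le_normalizer_R [Finite G] (h : Pair Q P z y) :
    P ≤ Subgroup.normalizer
      (((P ⊓ Subgroup.centralizer {z}) ⊔ (Q ⊓ Subgroup.centralizer {y}) : Subgroup G) : Set G) := by
  have := h.symm.Q_le_normalizer_R
  rwa [sup_comm] at this

theorem Pair.X_le_relCent_R [Finite G] (h : Pair Q P z y) :
    Q ⊔ P ≤ relCent ((P ⊓ Subgroup.centralizer {z}) ⊔ (Q ⊓ Subgroup.centralizer {y}))
      {c | c * z = z * c ∧ c * y = y * c} :=
  sup_le (fun _ hq => ⟨h.Q_le_normalizer_R hq, fun _ hc => Subgroup.mem_sup_right (h.Q_comm_CV hq hc.1 hc.2)⟩)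
    (fun _ hp => ⟨h.P_le_normalizer_R hp, fun _ hc => Subgroup.mem_sup_left (h.symm.Q_comm_CV hp hc.2 hc.1)⟩)

theorem Pair.R_isPGroup [Finite G] (h : Pair Q P z y) :
    IsPGroup 2 ((P ⊓ Subgroup.centralizer {z}) ⊔ (Q ⊓ Subgroup.centralizer {y}) : Subgroup G) := by
  rintro ⟨x, hx⟩
  refine ⟨2, Subtype.ext ?_⟩
  have h1 := h.E_sq (h.R_sq hx)
  show x ^ (2 ^ 2) = 1
  calc x ^ (2 ^ 2) = x * x * (x * x) := by
        rw [show (2 : ℕ) ^ 2 = 2 + 2 from rfl, pow_add, pow_two]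
    _ = 1 := h1

/-- `X / R ≅ S₃`. -/
theorem Pair.quot [Finite G] (h : Pair Q P z y) (htr : ∀ s, s * y * s⁻¹ = z → ∀ p ∈ P, s * p * s⁻¹ ∈ Q)
    (X R : Subgroup G) (hX : X = Q ⊔ P)
    (hR : R = (P ⊓ Subgroup.centralizer {z}) ⊔ (Q ⊓ Subgroup.centralizer {y}))
    [hn : (R.subgroupOf X).Normal] : Nonempty (X ⧸ R.subgroupOf X ≃* Equiv.Perm (Fin 3)) := by
  obtain ⟨q₀, hq₀, hq₀y⟩ := h.hQ.exists_conj h.yQ h.hP.ne h.ne
  obtain ⟨p₀, hp₀, hp₀z⟩ := h.hP.exists_conj h.zP h.hQ.ne h.ne.symm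
  have hQX : Q ≤ X := hX ▸ le_sup_left
  have hPX : P ≤ X := hX ▸ le_sup_right
  have hUR : ∀ u ∈ Q, u * y = y * u → u ∈ R := fun u hu huy => by
    rw [hR]; exact Subgroup.mem_sup_right ⟨hu, Subgroup.mem_centralizer_singleton_iff.2 huy⟩
  have hWR : ∀ w ∈ P, w * z = z * w → w ∈ R := fun w hw hwz => by
    rw [hR]; exact Subgroup.mem_sup_left ⟨hw, Subgroup.mem_centralizer_singleton_iff.2 hwz⟩
  have hzR : z ∈ R := hUR z h.hQ.mem h.comm.symm
  have hyR : y ∈ R := hUR y h.yQ rfl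
  have hRz : ∀ x ∈ R, x * z = z * x := fun x hx =>
    Subgroup.mem_centralizer_singleton_iff.1 (h.R_le_centralizer_z (hR ▸ hx))
  obtain ⟨π, hπ⟩ : ∃ π : X →* X ⧸ R.subgroupOf X, π = QuotientGroup.mk' (R.subgroupOf X) := ⟨_, rfl⟩
  have hπ1 : ∀ x : X, π x = 1 ↔ (x : G) ∈ R := fun x => by
    rw [hπ]; exact (QuotientGroup.eq_one_iff x).trans Subgroup.mem_subgroupOf
  have hπs : Function.Surjective π := by rw [hπ]; exact QuotientGroup.mk'_surjective _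
  obtain ⟨d, hd⟩ : ∃ d, d = π ⟨q₀, hQX hq₀⟩ := ⟨_, rfl⟩
  obtain ⟨e, he⟩ : ∃ e, e = π ⟨p₀, hPX hp₀⟩ := ⟨_, rfl⟩
  have hdd : d * d = 1 := by
    rw [hd, ← map_mul, hπ1]
    show q₀ * q₀ ∈ R
    rcases h.hQ.sqs q₀ hq₀ with h1 | h1
    · rw [h1]; exact R.one_mem
    · rw [h1]; exact hzR
  have hee : e * e = 1 := by
    rw [he, ← map_mul, hπ1]
    show p₀ * p₀ ∈ R
    rcases h.hP.sqs p₀ hp₀ with h1 | h1
    · rw [h1]; exact R.one_mem
    · rw [h1]; exact hyR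
  have hzy := h.comm
  have hq₀z : q₀ * z * q₀⁻¹ = z := by rw [h.hQ.cen q₀ hq₀]; group
  have hq₀z' : q₀⁻¹ * z * q₀ = z := by
    calc q₀⁻¹ * z * q₀ = q₀⁻¹ * (q₀ * z * q₀⁻¹) * q₀ := by rw [hq₀z]
      _ = z := by group
  have hq₀zy : q₀ * (z * y) * q₀⁻¹ = y := by
    calc q₀ * (z * y) * q₀⁻¹ = (q₀ * z * q₀⁻¹) * (q₀ * y * q₀⁻¹) := by group
      _ = z * (z * y) := by rw [hq₀z, hq₀y]
      _ = y := by rw [← mul_assoc, h.hQ.sq, one_mul]
  have hq₀y' : q₀⁻¹ * y * q₀ = z * y := by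
    calc q₀⁻¹ * y * q₀ = q₀⁻¹ * (q₀ * (z * y) * q₀⁻¹) * q₀ := by rw [hq₀zy]
      _ = z * y := by group
  have hp₀y : p₀ * y * p₀⁻¹ = y := by rw [h.hP.cen p₀ hp₀]; group
  have hp₀zy : p₀ * (z * y) * p₀⁻¹ = z := by
    calc p₀ * (z * y) * p₀⁻¹ = (p₀ * z * p₀⁻¹) * (p₀ * y * p₀⁻¹) := by group
      _ = y * z * y := by rw [hp₀z, hp₀y]
      _ = z := by rw [hzy, mul_assoc, h.hP.sq, mul_one]
  have hp₀z' : p₀⁻¹ * z * p₀ = z * y := by
    calc p₀⁻¹ * z * p₀ = p₀⁻¹ * (p₀ * (z * y) * p₀⁻¹) * p₀ := by rw [hp₀zy]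
      _ = z * y := by group
  have hp₀zy' : p₀⁻¹ * (z * y) * p₀ = z := by
    calc p₀⁻¹ * (z * y) * p₀ = p₀⁻¹ * (p₀ * z * p₀⁻¹) * p₀ := by rw [hp₀z, hzy]
      _ = z := by group
  obtain ⟨a, hadef⟩ : ∃ a, a = p₀⁻¹ * q₀ * p₀ * q₀⁻¹ * p₀ := ⟨_, rfl⟩
  have haQ : a ∈ Q := by
    have h1 : (p₀⁻¹ * q₀) * y * (p₀⁻¹ * q₀)⁻¹ = z := by
      calc (p₀⁻¹ * q₀) * y * (p₀⁻¹ * q₀)⁻¹ = p₀⁻¹ * (q₀ * y * q₀⁻¹) * p₀ := by group
        _ = z := by rw [hq₀y, hp₀zy']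
    have h2 := htr _ h1 p₀ hp₀
    have e1 : a = (p₀⁻¹ * q₀) * p₀ * (p₀⁻¹ * q₀)⁻¹ := by rw [hadef]; group
    rw [e1]; exact h2
  have hay : a * y * a⁻¹ = z * y := by
    calc a * y * a⁻¹ = p₀⁻¹ * (q₀ * (p₀ * (q₀⁻¹ * (p₀ * y * p₀⁻¹) * q₀) * p₀⁻¹) * q₀⁻¹) * p₀ := by
          rw [hadef]; group
      _ = z * y := by rw [hp₀y, hq₀y', hp₀zy, hq₀z, hp₀z']
  have haR : q₀⁻¹ * a ∈ R := by
    rcases h.hQ.coset h.yQ hq₀y haQ with h1 | h1
    · exfalso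
      have h2 : a * y * a⁻¹ = y := by rw [h1]; group
      rw [hay] at h2
      exact h.hQ.ne (mul_eq_right.1 h2)
    · exact hUR _ (Q.mul_mem (Q.inv_mem hq₀) haQ) h1
  have hrel : d⁻¹ * (e⁻¹ * d * e * d⁻¹ * e) = 1 := by
    rw [hd, he]
    simp only [← map_mul, ← map_inv]
    rw [hπ1]
    show q₀⁻¹ * (p₀⁻¹ * q₀ * p₀ * q₀⁻¹ * p₀) ∈ R
    rw [← hadef]; exact haR
  have hdi : d⁻¹ = d := inv_eq_of_mul_eq_one_left hdd
  have hei : e⁻¹ = e := inv_eq_of_mul_eq_one_left hee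
  have hbr : d * e * d = e * d * e := by
    rw [hdi, hei] at hrel
    have h1 : e * d * e * d * e = d := by
      calc e * d * e * d * e = (d * d) * (e * d * e * d * e) := by rw [hdd, one_mul]
        _ = d * (d * (e * d * e * d * e)) := by group
        _ = d := by rw [hrel, mul_one]
    calc d * e * d = (e * e) * d * e * d * (e * e) := by rw [hee, one_mul, mul_one]
      _ = e * (e * d * e * d * e) * e := by group
      _ = e * d * e := by rw [h1]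
  have hne : d ≠ e := by
    intro hde
    have h1 : π (⟨q₀, hQX hq₀⟩⁻¹ * ⟨p₀, hPX hp₀⟩) = 1 := by
      rw [map_mul, map_inv, ← hd, ← he, hde, inv_mul_cancel]
    rw [hπ1] at h1
    have h2 : (q₀⁻¹ * p₀) * z = z * (q₀⁻¹ * p₀) := hRz _ h1
    have h3 : (q₀⁻¹ * p₀) * z * (q₀⁻¹ * p₀)⁻¹ = y := by
      calc (q₀⁻¹ * p₀) * z * (q₀⁻¹ * p₀)⁻¹ = q₀⁻¹ * (p₀ * z * p₀⁻¹) * q₀ := by group
        _ = (q₀⁻¹ * y * q₀) * (q₀⁻¹ * z * q₀) := by rw [hp₀z]; group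
        _ = z * y * z := by rw [hq₀y', hq₀z']
        _ = y := by rw [mul_assoc, hzy, ← mul_assoc, h.hQ.sq, one_mul]
    rw [h2] at h3
    apply h.ne
    rw [← h3]; group
  have htop : Subgroup.closure ({d, e} : Set (X ⧸ R.subgroupOf X)) = ⊤ := by
    have hdm : d ∈ Subgroup.closure ({d, e} : Set (X ⧸ R.subgroupOf X)) := Subgroup.subset_closure (by simp)
    have hem : e ∈ Subgroup.closure ({d, e} : Set (X ⧸ R.subgroupOf X)) := Subgroup.subset_closure (by simp)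
    have hK : X ≤ ((Subgroup.closure ({d, e} : Set (X ⧸ R.subgroupOf X))).comap π).map X.subtype := by
      conv_lhs => rw [hX]
      apply sup_le
      · intro q hq
        refine ⟨⟨q, hQX hq⟩, ?_, rfl⟩
        show π ⟨q, hQX hq⟩ ∈ Subgroup.closure ({d, e} : Set (X ⧸ R.subgroupOf X))
        rcases h.hQ.coset h.yQ hq₀y hq with h1 | h1
        · rw [(hπ1 _).2 (hUR q hq h1)]; exact Subgroup.one_mem _
        · have h2 : q₀⁻¹ * q ∈ Q := Q.mul_mem (Q.inv_mem hq₀) hq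
          have e1 : (⟨q, hQX hq⟩ : X) = ⟨q₀, hQX hq₀⟩ * ⟨q₀⁻¹ * q, hQX h2⟩ :=
            Subtype.ext (by show q = q₀ * (q₀⁻¹ * q); group)
          rw [e1, map_mul, (hπ1 ⟨q₀⁻¹ * q, hQX h2⟩).2 (hUR _ h2 h1), mul_one, ← hd]
          exact hdm
      · intro p hp
        refine ⟨⟨p, hPX hp⟩, ?_, rfl⟩
        show π ⟨p, hPX hp⟩ ∈ Subgroup.closure ({d, e} : Set (X ⧸ R.subgroupOf X))
        rcases h.hP.coset h.zP hp₀z hp with h1 | h1
        · rw [(hπ1 _).2 (hWR p hp h1)]; exact Subgroup.one_mem _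
        · have h2 : p₀⁻¹ * p ∈ P := P.mul_mem (P.inv_mem hp₀) hp
          have e1 : (⟨p, hPX hp⟩ : X) = ⟨p₀, hPX hp₀⟩ * ⟨p₀⁻¹ * p, hPX h2⟩ :=
            Subtype.ext (by show p = p₀ * (p₀⁻¹ * p); group)
          rw [e1, map_mul, (hπ1 ⟨p₀⁻¹ * p, hPX h2⟩).2 (hWR _ h2 h1), mul_one, ← he]
          exact hem
    rw [eq_top_iff]
    intro t _
    obtain ⟨x, rfl⟩ := hπs t
    obtain ⟨x', hx', hxx'⟩ := hK x.2
    have : x' = x := Subtype.ext hxx'
    rw [← this]; exact hx'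
  obtain ⟨f⟩ := Cfsg.Agent.Lib.Helper3.closure_equiv_perm3 hdd hee hbr hne
  exact ⟨(Subgroup.topEquiv.symm.trans (MulEquiv.subgroupCongr htop.symm)).trans f⟩

end Cfsg.Agent.Lib.Helper27
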