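import Cfsg.Agent.Lib.Helper27.Extra2
import Cfsg.Agent.Lib.Helper16.Frat
import Cfsg.Agent.Lib.Helper22.Frat

set_option autoImplicit false

/-! Subgroups of an extraspecial 2-group which are again extraspecial. -/

namespace Cfsg.Agent.Lib.Helper27

open Cfsg
open scoped commutatorElement

variable {G : Type*} [Group G] {Q : Subgroup G} {z : G}

theorem ES.sub_extraspecial [Finite G] (h : ES Q z) (hQ2 : IsPGroup 2 Q) {D : Subgroup G} (hD : D ≤ Q)
    (hzD : z ∈ D) (hcen : ∀ x ∈ D, (∀ d ∈ D, d * x = x * d) → x = 1 ∨ x = z)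
    (hna : ∃ a ∈ D, ∃ b ∈ D, a * b ≠ b * a) : Cfsg.IsExtraspecial 2 D := by
  have : Fact (Nat.Prime 2) := ⟨Nat.prime_two⟩
  have hD2 : IsPGroup 2 D := hQ2.to_le hD
  have hcenter : ∀ x : D, x ∈ Subgroup.center D ↔ (x : G) = 1 ∨ (x : G) = z := by
    intro x
    rw [Subgroup.mem_center_iff]
    constructor
    · intro hx
      exact hcen x x.2 (fun d hd => congrArg Subtype.val (hx ⟨d, hd⟩))
    · rintro (hx | hx) d
      · apply Subtype.ext; simp [hx]
      · apply Subtype.ext
        show (d : G) * x = x * d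
        rw [hx]; exact h.cen d (hD d.2)
  have hcomm_le : commutator D ≤ Subgroup.center D := by
    rw [commutator_def, Subgroup.commutator_le]
    intro a _ b _
    rw [hcenter]
    exact h.comm a (hD a.2) b (hD b.2)
  have hcenter_le : Subgroup.center D ≤ commutator D := by
    intro x hx
    rcases (hcenter x).1 hx with hx1 | hx1
    · have : x = 1 := Subtype.ext hx1
      rw [this]; exact one_mem _
    · obtain ⟨a, ha, b, hb, hab⟩ := hna
      have h1 : a * b * a⁻¹ * b⁻¹ = z :=
        (h.comm a (hD ha) b (hD hb)).resolve_left (fun h0 => hab (comm_of_commutator_eq_one h0))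
      have : x = ⁅(⟨a, ha⟩ : D), ⟨b, hb⟩⁆ := Subtype.ext (by rw [hx1, ← h1]; rfl)
      rw [this]; exact Subgroup.commutator_mem_commutator (Subgroup.mem_top _) (Subgroup.mem_top _)
  have hce : commutator D = Subgroup.center D := le_antisymm hcomm_le hcenter_le
  refine ⟨⟨hD2, ?_, hce⟩, ?_⟩
  · apply le_antisymm
    · apply Cfsg.Agent.Lib.Helper16.frattini_le_of_elemAb (p := 2) hcomm_le
      intro x
      rw [hcenter, pow_two]; exact h.sqs x (hD x.2)
    · rw [← hce]; exact Cfsg.Agent.Lib.Helper22.commutator_le_frattini hD2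
  · rw [Nat.card_eq_two_iff]
    refine ⟨1, ⟨⟨z, hzD⟩, (hcenter _).2 (Or.inr rfl)⟩, ?_, ?_⟩
    · intro h1
      apply h.ne
      have := congrArg (fun x : Subgroup.center D => ((x : D) : G)) h1
      exact this.symm
    · ext x
      simp only [Set.mem_insert_iff, Set.mem_singleton_iff, Set.mem_univ, iff_true]
      rcases (hcenter x.1).1 x.2 with h1 | h1
      · left; exact Subtype.ext (Subtype.ext h1)
      · right; exact Subtype.ext (Subtype.ext h1)

/-- An element normalizing `Q` centralizes `z`. -/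
theorem ES.comm_of_normalizes (h : ES Q z) {a : G} (ha : a ∈ Subgroup.normalizer (Q : Set G)) : a * z = z * a := by
  have h1 : ∀ q ∈ Q, q * (a * z * a⁻¹) = (a * z * a⁻¹) * q := by
    intro q hq
    have hq' : a⁻¹ * q * a⁻¹⁻¹ ∈ Q := (Subgroup.mem_normalizer_iff.1 (Subgroup.inv_mem _ ha) q).1 hq
    have h2 := h.cen _ hq'
    calc q * (a * z * a⁻¹) = a * ((a⁻¹ * q * a⁻¹⁻¹) * z) * a⁻¹ := by group
      _ = a * (z * (a⁻¹ * q * a⁻¹⁻¹)) * a⁻¹ := by rw [h2]
      _ = (a * z * a⁻¹) * q := by group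
  rcases h.cent _ h1 with h2 | h2
  · exfalso
    apply h.ne
    calc z = a⁻¹ * (a * z * a⁻¹) * a := by group
      _ = 1 := by rw [h2]; group
  · calc a * z = (a * z * a⁻¹) * a := by group
      _ = z * a := by rw [h2]

end Cfsg.Agent.Lib.Helper27
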