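import Mathlib
import Cfsg.Agent.Lib.Helper2.Induction

set_option autoImplicit false

namespace Cfsg.Agent.Lib.Helper27.IndStab

open MulAction Subgroup Cfsg Cfsg.Agent.Lib.Helper2

variable {G Ω : Type*} [Group G] [MulAction G Ω]

theorem ext_conj (a : Ω) (μ : stabilizer G a → ℂ) (hμ : IsClassFunction (stabilizer G a) μ)
    (z k : G) (hk : k ∈ stabilizer G a) :
    extendByZero (stabilizer G a) μ (k⁻¹ * z * k) = extendByZero (stabilizer G a) μ z := by
  by_cases hz : z ∈ stabilizer G a
  · have h1 : k⁻¹ * z * k ∈ stabilizer G a := mul_mem (mul_mem (inv_mem hk) hz) hk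
    rw [extendByZero_mem _ _ h1, extendByZero_mem _ _ hz]
    have := hμ ⟨z, hz⟩ (⟨k, hk⟩ : stabilizer G a)⁻¹
    rw [← this]
    congr 1
    apply Subtype.ext
    simp
  · have h1 : k⁻¹ * z * k ∉ stabilizer G a := by
      intro h
      apply hz
      have := mul_mem (mul_mem hk h) (inv_mem hk)
      have e : k * (k⁻¹ * z * k) * k⁻¹ = z := by group
      rwa [e] at this
    rw [extendByZero_not_mem _ _ h1, extendByZero_not_mem _ _ hz]

/-- value of a function induced from a point stabiliser as a sum over fixed points -/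
theorem ind_formula [Fintype G] [Fintype Ω] [DecidableEq Ω] (a : Ω) (μ : stabilizer G a → ℂ)
    (hμ : IsClassFunction (stabilizer G a) μ) (y : Ω → G) (hy : ∀ c, y c • a = c) (g : G) :
    indFun (stabilizer G a) μ g = ∑ c ∈ Finset.univ.filter (fun c : Ω => g • c = c),
      extendByZero (stabilizer G a) μ ((y c)⁻¹ * g * y c) := by
  classical
  have := Fintype.ofFinite (stabilizer G a)
  unfold indFun
  rw [← Finset.sum_fiberwise (s := (Finset.univ : Finset G)) (g := fun x : G => x • a)]
  have h1 : ∀ c : Ω, ∑ x ∈ Finset.univ.filter (fun x : G => x • a = c),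
      extendByZero (stabilizer G a) μ (x⁻¹ * g * x) =
      (Nat.card (stabilizer G a) : ℂ) * extendByZero (stabilizer G a) μ ((y c)⁻¹ * g * y c) := by
    intro c
    have h2 : ∀ x ∈ Finset.univ.filter (fun x : G => x • a = c),
        extendByZero (stabilizer G a) μ (x⁻¹ * g * x) =
          extendByZero (stabilizer G a) μ ((y c)⁻¹ * g * y c) := by
      intro x hx
      simp only [Finset.mem_filter, Finset.mem_univ, true_and] at hx
      have hk : (y c)⁻¹ * x ∈ stabilizer G a := by
        rw [mem_stabilizer_iff, mul_smul, hx, inv_smul_eq_iff, hy]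
      rw [← ext_conj a μ hμ ((y c)⁻¹ * g * y c) _ hk]
      congr 1
      group
    rw [Finset.sum_congr rfl h2, Finset.sum_const, nsmul_eq_mul]
    congr 2
    rw [Nat.card_eq_fintype_card, ← Finset.card_univ]
    refine Finset.card_bij (fun x _ => ⟨(y c)⁻¹ * x, ?_⟩) ?_ ?_ ?_
    · simp only [Finset.mem_filter, Finset.mem_univ, true_and] at *
      rw [mem_stabilizer_iff, mul_smul]
      rename_i hx
      rw [hx, inv_smul_eq_iff, hy]
    · intro x _
      exact Finset.mem_univ _
    · intro x _ x' _ h
      have := congrArg Subtype.val h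
      exact mul_left_cancel this
    · intro k _
      refine ⟨y c * k, ?_, ?_⟩
      · simp only [Finset.mem_filter, Finset.mem_univ, true_and]
        rw [mul_smul, k.2, hy]
      · apply Subtype.ext
        simp
  simp_rw [h1]
  rw [← Finset.mul_sum, ← mul_assoc, inv_mul_cancel₀ (card_subgroup_ne_zero _), one_mul,
    Finset.sum_filter]
  refine Finset.sum_congr rfl fun c _ => ?_
  split_ifs with hc
  · rfl
  · apply extendByZero_not_mem
    intro h
    apply hc
    rw [mem_stabilizer_iff, mul_smul, mul_smul, hy, inv_smul_eq_iff, hy] at h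
    exact h

end Cfsg.Agent.Lib.Helper27.IndStab
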