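import Mathlib

set_option autoImplicit false

/-! Transitive groups of prime degree. -/

namespace Cfsg.Agent.Lib.Helper27.PrimeDeg

open Subgroup MulAction

variable {G α : Type*} [Group G] [Finite G] [MulAction G α] [FaithfulSMul G α] [Finite α]
  {p : ℕ} [Fact p.Prime]

theorem pretransitive_of_normal [IsPretransitive G α] (hα : Nat.card α = p) (N : Subgroup G) [N.Normal]
    (hN : N ≠ ⊥) : IsPretransitive N α := by
  have hp : p.Prime := Fact.out
  have : IsPreprimitive G α := IsPreprimitive.of_prime_card (hα ▸ hp)
  apply IsQuasiPreprimitive.isPretransitive_of_normal (G := G)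
  intro h
  apply hN
  rw [eq_bot_iff]
  intro n hn
  rw [mem_bot]
  apply FaithfulSMul.eq_of_smul_eq_smul (α := α)
  intro a
  have ha : a ∈ fixedPoints N α := by rw [h]; trivial
  rw [one_smul]
  exact ha ⟨n, hn⟩

theorem dvd_card_of_normal [IsPretransitive G α] (hα : Nat.card α = p) (N : Subgroup G) [N.Normal]
    (hN : N ≠ ⊥) : p ∣ Nat.card N := by
  have := pretransitive_of_normal hα N hN
  have hne : Nonempty α := by
    have hp : p.Prime := Fact.out
    apply (Nat.card_pos_iff.mp _).1
    rw [hα]; exact hp.pos
  obtain ⟨a⟩ := hne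
  rw [← hα, ← index_stabilizer_of_transitive N a]
  exact Subgroup.index_dvd_card _

theorem sylow_le_of_normal [IsPretransitive G α] (hα : Nat.card α = p) (P : Sylow p G)
    (hP : Nat.card P = p) (N : Subgroup G) [hNn : N.Normal] (hN : N ≠ ⊥) : (P : Subgroup G) ≤ N := by
  have hp : p.Prime := Fact.out
  obtain ⟨x, hx⟩ := exists_prime_orderOf_dvd_card' (G := N) p (dvd_card_of_normal hα N hN)
  have hx' : orderOf (x : G) = p := by rw [Subgroup.orderOf_coe]; exact hx
  have hpg : IsPGroup p (zpowers (x : G)) := by
    apply IsPGroup.of_card (n := 1)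
    rw [Nat.card_zpowers, hx', pow_one]
  obtain ⟨P', hP'⟩ := hpg.exists_le_sylow
  have hc : Nat.card P' = p := by
    refine Eq.trans ?_ hP
    rw [P'.card_eq_multiplicity, P.card_eq_multiplicity]
  have hE : zpowers (x : G) = P' := by
    apply Subgroup.eq_of_le_of_card_ge hP'
    rw [Nat.card_zpowers, hx']
    exact hc.le
  obtain ⟨g, hg⟩ := MulAction.exists_smul_eq G P' P
  intro y hy
  have hy' : y ∈ ((g • P' : Sylow p G) : Subgroup G) := by rw [hg]; exact hy
  rw [Sylow.coe_subgroup_smul, Subgroup.mem_pointwise_smul_iff_inv_smul_mem, MulAut.smul_def,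
    MulAut.conj_inv_apply, ← hE] at hy'
  have h1 : g⁻¹ * y * g ∈ N := (zpowers_le.mpr x.2) hy'
  have h2 := hNn.conj_mem _ h1 g
  have e : g * (g⁻¹ * y * g) * g⁻¹ = y := by group
  rwa [e] at h2

theorem simple_of_prime_index [IsPretransitive G α] (hα : Nat.card α = p) (P : Sylow p G)
    (hP : Nat.card P = p) (hn : 1 < Nat.card (Sylow p G))
    (ht : (((P : Subgroup G).subgroupOf (normalizer ((P : Subgroup G) : Set G))).index).Prime) :
    IsSimpleGroup G := by
  have hp : p.Prime := Fact.out
  have hnt : Nontrivial G := by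
    by_contra h
    rw [not_nontrivial_iff_subsingleton] at h
    have : Subsingleton (Sylow p G) := ⟨fun A B => Sylow.ext (Subsingleton.elim _ _)⟩
    have := Finite.card_le_one_iff_subsingleton.mpr this
    omega
  refine ⟨fun N hNn => ?_⟩
  by_contra hcon
  push Not at hcon
  obtain ⟨hN0, hN1⟩ := hcon
  have hPN := sylow_le_of_normal hα P hP N hN0
  have hfr := Sylow.normalizer_sup_eq_top' P hPN
  set H := normalizer ((P : Subgroup G) : Set G) with hH
  set L := H ⊓ N with hL
  have hPH : (P : Subgroup G) ≤ H := le_normalizer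
  have hPL : (P : Subgroup G) ≤ L := le_inf hPH hPN
  have hLH : L ≤ H := inf_le_left
  have hmul : (P : Subgroup G).relIndex L * L.relIndex H = (P : Subgroup G).relIndex H :=
    relIndex_mul_relIndex _ _ _ hPL hLH
  have ht' : ((P : Subgroup G).relIndex H).Prime := ht
  rcases (Nat.dvd_prime ht').mp (Dvd.intro_left _ hmul) with h1 | h1
  · -- H ≤ L
    apply hN1
    have : H ≤ L := relIndex_eq_one.mp h1
    rw [← hfr]
    exact (sup_eq_right.mpr (this.trans inf_le_right)).symm
  · -- L = P
    have h2 : (P : Subgroup G).relIndex L = 1 := by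
      rw [h1] at hmul
      have hpos : 0 < (P : Subgroup G).relIndex H := ht'.pos
      exact Nat.eq_of_mul_eq_mul_right hpos (by rw [hmul, one_mul])
    have hLP : L ≤ P := relIndex_eq_one.mp h2
    -- Burnside transfer in N
    set PN : Sylow p N := P.subtype hPN with hPNdef
    have hPNc : (PN : Subgroup N) = (P : Subgroup G).subgroupOf N := P.coe_subtype hPN
    have hcomm : ∀ a ∈ (P : Subgroup G), ∀ b ∈ (P : Subgroup G), a * b = b * a := by
      have hcyc : IsCyclic (P : Subgroup G) := isCyclic_of_prime_card hP
      intro a ha b hb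
      have := hcyc.isMulCommutative.is_comm.comm (⟨a, ha⟩ : (P : Subgroup G)) ⟨b, hb⟩
      exact congrArg Subtype.val this
    have hNC : normalizer ((PN : Subgroup N) : Set N) ≤ centralizer ((PN : Subgroup N) : Set N) := by
      intro x hx
      have hxH : (x : G) ∈ H := by
        rw [hH, mem_normalizer_iff]
        intro y
        rw [mem_normalizer_iff] at hx
        constructor
        · intro hy
          have := (hx ⟨y, hPN hy⟩).mp (by rw [hPNc, mem_subgroupOf]; exact hy)
          rw [hPNc, mem_subgroupOf] at this
          exact this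
        · intro hy
          have hyN : y ∈ N := by
            have h3 := hNn.conj_mem _ (hPN hy) (x : G)⁻¹
            have e : (x : G)⁻¹ * ((x : G) * y * (x : G)⁻¹) * (x : G)⁻¹⁻¹ = y := by group
            rwa [e] at h3
          have := (hx ⟨y, hyN⟩).mpr (by rw [hPNc, mem_subgroupOf]; exact hy)
          rw [hPNc, mem_subgroupOf] at this
          exact this
      have hxP : (x : G) ∈ (P : Subgroup G) := hLP ⟨hxH, x.2⟩
      rw [mem_centralizer_iff]
      intro y hy
      have hy' : (y : G) ∈ (P : Subgroup G) := by
        have : y ∈ (PN : Subgroup N) := hy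
        rw [hPNc, mem_subgroupOf] at this
        exact this
      apply Subtype.ext
      exact hcomm _ hy' _ hxP
    set K := (MonoidHom.transferSylow PN hNC).ker with hK
    have hKc := MonoidHom.ker_transferSylow_isComplement' PN hNC
    have hKp : ¬ p ∣ Nat.card K := MonoidHom.not_dvd_card_ker_transferSylow PN hNC
    have hPNcard : Nat.card (PN : Subgroup N) = p := by
      rw [hPNc]
      exact (Nat.card_congr (subgroupOfEquivOfLe hPN).toEquiv).trans hP
    have hKidx : K.index = p := by rw [hKc.symm.index_eq_card, hPNcard]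
    have hKn : K.Normal := MonoidHom.normal_ker _
    -- K consists of the p'-elements of N
    have hKmem : ∀ x : N, x ∈ K ↔ (orderOf x).Coprime p := by
      intro x
      constructor
      · intro hx
        have h3 : orderOf x ∣ Nat.card K := by
          rw [← Subgroup.orderOf_mk x hx]; exact orderOf_dvd_natCard _
        exact ((Nat.Prime.coprime_iff_not_dvd hp).mpr hKp).symm.coprime_dvd_left h3
      · intro hx
        rw [← QuotientGroup.eq_one_iff, ← orderOf_eq_one_iff]
        have h3 : orderOf (x : N ⧸ K) ∣ orderOf x := orderOf_map_dvd (QuotientGroup.mk' K) x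
        have h4 : orderOf (x : N ⧸ K) ∣ p := by
          rw [← hKidx]; exact orderOf_dvd_natCard _
        exact Nat.Coprime.eq_one_of_dvd (hx.coprime_dvd_left h3) h4
    set K' := K.map N.subtype with hK'
    have hK'n : K'.Normal := by
      refine ⟨fun y hy g => ?_⟩
      obtain ⟨x, hx, rfl⟩ := hy
      refine ⟨⟨g * x * g⁻¹, hNn.conj_mem _ x.2 g⟩, ?_, rfl⟩
      show _ ∈ K
      rw [hKmem, ← Subgroup.orderOf_coe]
      have := (hKmem x).mp hx
      rw [← Subgroup.orderOf_coe] at this
      have e : orderOf (g * (x : G) * g⁻¹) = orderOf (x : G) := by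
        have := orderOf_injective (MulAut.conj g).toMonoidHom (MulAut.conj g).injective (x : G)
        simpa using this
      show (orderOf (g * (x : G) * g⁻¹)).Coprime p
      rw [e]; exact this
    have hK'card : Nat.card K' = Nat.card K := card_map_of_injective N.subtype_injective
    have hK'bot : K' = ⊥ := by
      by_contra h
      exact hKp (hK'card ▸ dvd_card_of_normal hα K' h)
    have hKbot : K = ⊥ := by
      rwa [hK', map_eq_bot_iff_of_injective _ N.subtype_injective] at hK'bot
    have hNcard : Nat.card N = p := by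
      rw [← K.index_mul_card, hKidx, hKbot, card_bot, mul_one]
    have hNP : (P : Subgroup G) = N := by
      apply Subgroup.eq_of_le_of_card_ge hPN
      rw [hNcard]; exact hP.ge
    have hPn : (P : Subgroup G).Normal := hNP ▸ hNn
    have := Sylow.unique_of_normal P hPn
    have h5 : Nat.card (Sylow p G) = 1 := Nat.card_unique
    omega

theorem not_sq_dvd_factorial : ¬ p ^ 2 ∣ p.factorial := by
  have hp : p.Prime := Fact.out
  intro h
  obtain ⟨k, hk⟩ : ∃ k, p = k + 1 := ⟨p - 1, by have := hp.pos; omega⟩
  rw [pow_two] at h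
  have h2 : p.factorial = p * k.factorial := by
    conv_lhs => rw [hk, Nat.factorial_succ, ← hk]
  rw [h2] at h
  have h3 : p ∣ k.factorial := Nat.dvd_of_mul_dvd_mul_left hp.pos h
  have := (hp.dvd_factorial).mp h3
  omega

theorem card_sylow_perm {β : Type*} [Fintype β] [DecidableEq β] (hβ : Fintype.card β = p)
    (G : Subgroup (Equiv.Perm β)) [IsPretransitive G β] (P : Sylow p G) : Nat.card P = p := by
  have hp : p.Prime := Fact.out
  have h1 : Nat.card G ∣ p.factorial := by
    have := Subgroup.card_subgroup_dvd_card G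
    rwa [Nat.card_perm, Nat.card_eq_fintype_card (α := β), hβ] at this
  have h2 : p ∣ Nat.card G := by
    have hne : Nonempty β := by
      apply Fintype.card_pos_iff.mp
      rw [hβ]; exact hp.pos
    obtain ⟨a⟩ := hne
    have h3 := index_stabilizer_of_transitive G a
    rw [Nat.card_eq_fintype_card, hβ] at h3
    rw [← h3]
    exact Subgroup.index_dvd_card _
  rw [P.card_eq_multiplicity]
  have h3 : (Nat.card G).factorization p = 1 := by
    apply le_antisymm
    · by_contra h
      push Not at h
      have h4 : p ^ 2 ∣ Nat.card G :=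
        (hp.pow_dvd_iff_le_factorization Nat.card_pos.ne').mpr h
      exact not_sq_dvd_factorial (h4.trans h1)
    · exact (hp.dvd_iff_one_le_factorization Nat.card_pos.ne').mp h2
  rw [h3, pow_one]

end Cfsg.Agent.Lib.Helper27.PrimeDeg
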