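import Mathlib
import Cfsg.Agent.S3742

set_option autoImplicit false

/-! Elements normalising a quaternion subgroup of order 8. -/

namespace Cfsg.Agent.Lib.Helper27.QuatNorm

variable {G : Type*} [Group G]

theorem centralizes_of_order (R : Subgroup G) (e : R ≃* QuaternionGroup 2) (y : G)
    (hy : y ∈ Subgroup.normalizer (R : Set G)) (r : ℕ) (hr : r.Prime) (h2 : r ≠ 2) (h3 : r ≠ 3)
    (hyr : y ^ r = 1) : ∀ ρ ∈ R, y * ρ = ρ * y := by
  obtain ⟨e4⟩ := Cfsg.Agent.S3742.result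
  have hn : (R.subgroupOf (Subgroup.normalizer (R : Set G))).Normal := Subgroup.normal_in_normalizer
  let c : Subgroup.normalizer (R : Set G) →* MulAut (R.subgroupOf (Subgroup.normalizer (R : Set G))) :=
    MulAut.conjNormal
  let E : MulAut (R.subgroupOf (Subgroup.normalizer (R : Set G))) ≃* Equiv.Perm (Fin 4) :=
    (MulAut.congr ((Subgroup.subgroupOfEquivOfLe Subgroup.le_normalizer).trans e)).trans e4
  have h1 : (E (c ⟨y, hy⟩)) ^ r = 1 := by
    rw [← map_pow, ← map_pow]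
    have : (⟨y, hy⟩ : Subgroup.normalizer (R : Set G)) ^ r = 1 := Subtype.ext hyr
    rw [this, map_one, map_one]
  have h24 : (E (c ⟨y, hy⟩)) ^ 24 = 1 := by
    have := pow_card_eq_one (x := E (c ⟨y, hy⟩))
    rwa [Fintype.card_perm, Fintype.card_fin] at this
  have hcop : Nat.gcd r 24 = 1 := by
    have h24' : (24 : ℕ) = 2 ^ 3 * 3 := by norm_num
    rw [h24']
    apply Nat.Coprime.mul_right
    · exact Nat.Coprime.pow_right 3 ((Nat.coprime_primes hr Nat.prime_two).2 h2)
    · exact (Nat.coprime_primes hr Nat.prime_three).2 h3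
  have h5 : E (c ⟨y, hy⟩) = 1 := by
    have := pow_gcd_eq_one.2 ⟨h1, h24⟩
    rwa [hcop, pow_one] at this
  have h6 : c ⟨y, hy⟩ = 1 := (map_eq_one_iff E E.injective).1 h5
  intro ρ hρ
  have h7 := MulAut.conjNormal_apply (H := R.subgroupOf (Subgroup.normalizer (R : Set G)))
    (⟨y, hy⟩ : Subgroup.normalizer (R : Set G)) ⟨⟨ρ, Subgroup.le_normalizer hρ⟩, hρ⟩
  have h8 : (MulAut.conjNormal (⟨y, hy⟩ : Subgroup.normalizer (R : Set G)) :
      MulAut (R.subgroupOf (Subgroup.normalizer (R : Set G)))) = 1 := h6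
  rw [h8] at h7
  have h9 := congrArg Subtype.val h7
  simp only [MulAut.one_apply, Subgroup.coe_mul, InvMemClass.coe_inv] at h9
  rw [eq_mul_inv_iff_mul_eq] at h9
  exact h9.symm

theorem mem_normalizer_of_gens (R : Subgroup G) (e : R ≃* QuaternionGroup 2) (w : G)
    (h1 : w * (e.symm (QuaternionGroup.a 1) : G) * w⁻¹ ∈ R)
    (h2 : w * (e.symm (QuaternionGroup.xa 0) : G) * w⁻¹ ∈ R) :
    w ∈ Subgroup.normalizer (R : Set G) := by
  have hfin : Finite R := Finite.of_equiv _ e.symm.toEquiv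
  have hdesc : ∀ q : QuaternionGroup 2, ∃ k : Fin 4, q = (QuaternionGroup.a 1) ^ (k : ℕ) ∨
      q = QuaternionGroup.xa 0 * (QuaternionGroup.a 1) ^ (k : ℕ) := by decide
  rw [Subgroup.mem_normalizer_iff_map_conj_eq]
  apply Subgroup.eq_of_le_of_card_ge
  · rintro _ ⟨ρ, hρ, rfl⟩
    show w * ρ * w⁻¹ ∈ R
    obtain ⟨k, hk | hk⟩ := hdesc (e ⟨ρ, hρ⟩)
    · have : (⟨ρ, hρ⟩ : R) = (e.symm (QuaternionGroup.a 1)) ^ (k : ℕ) := by
        rw [← map_pow, ← hk, MulEquiv.symm_apply_apply]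
      have h3 : ρ = (e.symm (QuaternionGroup.a 1) : G) ^ (k : ℕ) := by
        have := congrArg Subtype.val this
        simpa using this
      rw [h3, ← conj_pow]
      exact Subgroup.pow_mem _ h1 _
    · have : (⟨ρ, hρ⟩ : R) = e.symm (QuaternionGroup.xa 0) * (e.symm (QuaternionGroup.a 1)) ^ (k : ℕ) := by
        rw [← map_pow, ← map_mul, ← hk, MulEquiv.symm_apply_apply]
      have h3 : ρ = (e.symm (QuaternionGroup.xa 0) : G) * (e.symm (QuaternionGroup.a 1) : G) ^ (k : ℕ) := by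
        have := congrArg Subtype.val this
        simpa using this
      have h4 : w * ρ * w⁻¹ = (w * (e.symm (QuaternionGroup.xa 0) : G) * w⁻¹) *
          (w * (e.symm (QuaternionGroup.a 1) : G) * w⁻¹) ^ (k : ℕ) := by
        rw [h3, conj_pow]; group
      rw [h4]
      exact Subgroup.mul_mem _ h2 (Subgroup.pow_mem _ h1 _)
  · rw [Subgroup.card_map_of_injective (MulAut.conj w).injective]

end Cfsg.Agent.Lib.Helper27.QuatNorm
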