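import Mathlib
import Cfsg.Agent.Lib.Helper27.ConjSub
import Cfsg.Agent.Lib.Helper2.KleinMk
import Cfsg.Agent.S1012

set_option autoImplicit false

/-! Recognising `S₄` as the normaliser of a self-centralising four-group. -/

namespace Cfsg.Agent.Lib.Helper27.S4Recog

open Cfsg.Agent.Lib.Helper27.ConjSub Pointwise

variable {G : Type*} [Group G]

theorem conj_sq (z a b c : G) (h1 : z * a * z⁻¹ = b) (h2 : z * b * z⁻¹ = c) :
    (z * z) * a = c * (z * z) := by
  have e1 : z * a = b * z := by rw [← h1]; group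
  have e2 : z * b = c * z := by rw [← h2]; group
  calc (z * z) * a = z * (z * a) := by group
    _ = z * (b * z) := by rw [e1]
    _ = (z * b) * z := by group
    _ = c * z * z := by rw [e2]
    _ = c * (z * z) := by group

theorem conj_cube (z a b c d : G) (h1 : z * a * z⁻¹ = b) (h2 : z * b * z⁻¹ = c)
    (h3 : z * c * z⁻¹ = d) : (z * z * z) * a = d * (z * z * z) := by
  have e1 := conj_sq z a b c h1 h2
  have e3 : z * c = d * z := by rw [← h3]; group
  calc (z * z * z) * a = z * ((z * z) * a) := by group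
    _ = z * (c * (z * z)) := by rw [e1]
    _ = (z * c) * (z * z) := by group
    _ = d * z * (z * z) := by rw [e3]
    _ = d * (z * z * z) := by group

theorem conj_mul (z a b a' b' : G) (h1 : z * a * z⁻¹ = a') (h2 : z * b * z⁻¹ = b') :
    z * (a * b) * z⁻¹ = a' * b' := by
  rw [← h1, ← h2]; group

/-- fixes `a`, sends `b` to `ab` -/
theorem lemA (a b z : G) (ha : a * a = 1) (hb : b * b = 1) (hab : a * b = b * a)
    (hCV : ∀ y, y * a = a * y → y * b = b * y → y * y = 1)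
    (h1 : z * a * z⁻¹ = a) (h2 : z * b * z⁻¹ = a * b) : z ^ 4 = 1 := by
  have h3 : z * (a * b) * z⁻¹ = b := by
    rw [conj_mul z a b _ _ h1 h2, ← mul_assoc, ha, one_mul]
  have := hCV (z * z) (conj_sq z a a a h1 h1) (conj_sq z b _ b h2 h3)
  rw [← this]; simp only [pow_succ, pow_zero, one_mul, mul_assoc]

/-- swaps `a` and `b` -/
theorem lemB (a b z : G)
    (hCV : ∀ y, y * a = a * y → y * b = b * y → y * y = 1)
    (h1 : z * a * z⁻¹ = b) (h2 : z * b * z⁻¹ = a) : z ^ 4 = 1 := by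
  have := hCV (z * z) (conj_sq z a b a h1 h2) (conj_sq z b a b h2 h1)
  rw [← this]; simp only [pow_succ, pow_zero, one_mul, mul_assoc]

/-- cycles `a → b → ab` -/
theorem lemC (a b z : G) (ha : a * a = 1) (hb : b * b = 1) (hab : a * b = b * a)
    (ha1 : a ≠ 1) (hb1 : b ≠ 1) (hne : a ≠ b)
    (hCV : ∀ y, y * a = a * y → y * b = b * y → y = 1 ∨ y = a ∨ y = b ∨ y = a * b)
    (h1 : z * a * z⁻¹ = b) (h2 : z * b * z⁻¹ = a * b) : z ^ 3 = 1 := by
  have h3 : z * (a * b) * z⁻¹ = a := by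
    rw [conj_mul z a b _ _ h1 h2, ← mul_assoc, ← hab, mul_assoc, hb, mul_one]
  have h4 := hCV (z * z * z) (conj_cube z a b _ a h1 h2 h3) (conj_cube z b _ a b h2 h3 h1)
  have h5 : z * (z * z * z) * z⁻¹ = z * z * z := by group
  have h6 : z ^ 3 = z * z * z := by simp only [pow_succ, pow_zero, one_mul]
  rw [h6]
  rcases h4 with h4 | h4 | h4 | h4
  · exact h4
  · rw [h4, h1] at h5; exact absurd h5.symm hne
  · rw [h4, h2] at h5; exact absurd (mul_eq_right.1 h5) ha1
  · rw [h4, h3] at h5; exact absurd (left_eq_mul.1 h5) hb1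

theorem exists_S4 [Finite G] (x₁ x₂ c s : G) (h1 : x₁ * x₁ = 1)
    (h2 : x₂ * x₂ = 1) (hx1 : x₁ ≠ 1) (hx2 : x₂ ≠ 1) (hne : x₁ ≠ x₂) (hc : x₁ * x₂ = x₂ * x₁)
    (hc1 : c * x₁ * c⁻¹ = x₂) (hc2 : c * x₂ * c⁻¹ = x₁ * x₂)
    (hs1 : s * x₁ * s⁻¹ = x₁) (hs2 : s * x₂ * s⁻¹ = x₁ * x₂)
    (hCV : ∀ y, y * x₁ = x₁ * y → y * x₂ = x₂ * y → y = 1 ∨ y = x₁ ∨ y = x₂ ∨ y = x₁ * x₂) :
    ∃ H : Subgroup G, Nonempty (H ≃* Equiv.Perm (Fin 4)) := by
  set V : Subgroup G := Subgroup.closure ({x₁, x₂} : Set G) with hV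
  have hVset : (V : Set G) = {1, x₁, x₂, x₁ * x₂} :=
    Cfsg.Agent.Lib.Helper2.coe_closure_commuting_involutions h1 h2 hc
  have hmemV : ∀ v, v ∈ V ↔ v = 1 ∨ v = x₁ ∨ v = x₂ ∨ v = x₁ * x₂ := by
    intro v
    rw [← SetLike.mem_coe, hVset]
    simp
  have ho1 : orderOf x₁ = 2 := orderOf_eq_prime (by rw [pow_two, h1]) hx1
  have ho2 : orderOf x₂ = 2 := orderOf_eq_prime (by rw [pow_two, h2]) hx2
  have hK := Cfsg.Agent.Lib.Helper2.isKleinFour_closure ho1 ho2 hc hne
  have hcardV : Nat.card V = 4 := hK.card_four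
  have h33 : (x₁ * x₂) * (x₁ * x₂) = 1 := by
    rw [mul_assoc, ← mul_assoc x₂, ← hc, mul_assoc, h2, mul_one, h1]
  have hVsq : ∀ v ∈ V, v * v = 1 := by
    intro v hv
    rcases (hmemV v).1 hv with rfl | rfl | rfl | rfl
    · simp
    · exact h1
    · exact h2
    · exact h33
  have hCVsq : ∀ y, y * x₁ = x₁ * y → y * x₂ = x₂ * y → y * y = 1 := fun y e1 e2 =>
    hVsq y ((hmemV y).2 (hCV y e1 e2))
  have hCV' : ∀ y, y * x₂ = x₂ * y → y * x₁ = x₁ * y → y = 1 ∨ y = x₂ ∨ y = x₁ ∨ y = x₂ * x₁ := by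
    intro y e2 e1
    rcases hCV y e1 e2 with h | h | h | h
    · exact Or.inl h
    · exact Or.inr (Or.inr (Or.inl h))
    · exact Or.inr (Or.inl h)
    · exact Or.inr (Or.inr (Or.inr (h.trans hc)))
  have h31 : x₁ * x₂ ≠ x₁ := fun h => hx2 (mul_eq_left.1 h)
  have h32 : x₁ * x₂ ≠ x₂ := fun h => hx1 (mul_eq_right.1 h)
  have h30 : x₁ * x₂ ≠ 1 := by
    intro h
    apply hne
    have : x₁ * x₂ = x₁ * x₁ := by rw [h, h1]
    exact (mul_left_cancel this).symm
  have hc3 : c ^ 3 = 1 := lemC x₁ x₂ c h1 h2 hc hx1 hx2 hne hCV hc1 hc2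
  have hcne : c ≠ 1 := by
    rintro rfl
    apply hne
    simpa using hc1
  have hoc : orderOf c = 3 := orderOf_eq_prime hc3 hcne
  set C : Subgroup G := Subgroup.zpowers c with hC
  have hcardC : Nat.card C = 3 := by rw [hC, Nat.card_zpowers, hoc]
  -- membership in the normaliser from the images of the generators
  have hNmem : ∀ n a b : G, n * x₁ * n⁻¹ = a → n * x₂ * n⁻¹ = b → a ∈ V → b ∈ V →
      n ∈ Subgroup.normalizer (V : Set G) := by
    intro n a b ea eb haV hbV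
    rw [Subgroup.mem_normalizer_iff_map_conj_eq]
    have hle : V.map (MulAut.conj n).toMonoidHom ≤ V := by
      have := map_conj_closure_pair n x₁ x₂
      rw [ea, eb] at this
      rw [hV, this, Subgroup.closure_le]
      rintro y (rfl | rfl)
      · exact haV
      · exact hbV
    apply Subgroup.eq_of_le_of_card_ge hle
    rw [Subgroup.card_map_of_injective (MulAut.conj n).injective]
  have hcN : c ∈ Subgroup.normalizer (V : Set G) :=
    hNmem c _ _ hc1 hc2 ((hmemV _).2 (by simp)) ((hmemV _).2 (by simp))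
  have hsN : s ∈ Subgroup.normalizer (V : Set G) :=
    hNmem s _ _ hs1 hs2 ((hmemV _).2 (by simp)) ((hmemV _).2 (by simp))
  have hCN : C ≤ Subgroup.normalizer (V : Set G) := by
    rw [hC, Subgroup.zpowers_le]; exact hcN
  set N : Subgroup G := Subgroup.normalizer (V : Set G) with hN
  have hVN : V ≤ N := Subgroup.le_normalizer
  -- the action of an element of `N` on the pair
  have hact : ∀ n ∈ N, (n * x₁ * n⁻¹ = x₁ ∨ n * x₁ * n⁻¹ = x₂ ∨ n * x₁ * n⁻¹ = x₁ * x₂) ∧
      (n * x₂ * n⁻¹ = x₁ ∨ n * x₂ * n⁻¹ = x₂ ∨ n * x₂ * n⁻¹ = x₁ * x₂) ∧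
      n * x₁ * n⁻¹ ≠ n * x₂ * n⁻¹ := by
    intro n hn
    have e1 := (Subgroup.mem_normalizer_iff.1 hn x₁).1 ((hmemV _).2 (by simp))
    have e2 := (Subgroup.mem_normalizer_iff.1 hn x₂).1 ((hmemV _).2 (by simp))
    refine ⟨?_, ?_, ?_⟩
    · rcases (hmemV _).1 e1 with h | h | h | h
      · exfalso; apply hx1
        have : x₁ = n⁻¹ * (n * x₁ * n⁻¹) * n := by group
        rw [this, h]; group
      · exact Or.inl h
      · exact Or.inr (Or.inl h)
      · exact Or.inr (Or.inr h)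
    · rcases (hmemV _).1 e2 with h | h | h | h
      · exfalso; apply hx2
        have : x₂ = n⁻¹ * (n * x₂ * n⁻¹) * n := by group
        rw [this, h]; group
      · exact Or.inl h
      · exact Or.inr (Or.inl h)
      · exact Or.inr (Or.inr h)
    · intro h
      apply hne
      have e3 : x₁ = n⁻¹ * (n * x₁ * n⁻¹) * n := by group
      have e4 : x₂ = n⁻¹ * (n * x₂ * n⁻¹) * n := by group
      rw [e3, e4, h]
  -- every element has order dividing 3 or 4
  have hord : ∀ n ∈ N, n ^ 4 = 1 ∨ n ^ 3 = 1 := by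
    intro n hn
    obtain ⟨e1, e2, e3⟩ := hact n hn
    rcases e1 with e1 | e1 | e1 <;> rcases e2 with e2 | e2 | e2
    · exact absurd (e1.trans e2.symm) e3
    · left
      have := hCVsq n (mul_inv_eq_iff_eq_mul.1 e1) (mul_inv_eq_iff_eq_mul.1 e2)
      rw [show n ^ 4 = (n * n) * (n * n) by simp only [pow_succ, pow_zero, one_mul, mul_assoc],
        this, one_mul]
    · exact Or.inl (lemA x₁ x₂ n h1 h2 hc hCVsq e1 e2)
    · exact Or.inl (lemB x₁ x₂ n hCVsq e1 e2)
    · exact absurd (e1.trans e2.symm) e3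
    · exact Or.inr (lemC x₁ x₂ n h1 h2 hc hx1 hx2 hne hCV e1 e2)
    · exact Or.inr (lemC x₂ x₁ n h2 h1 hc.symm hx2 hx1 hne.symm hCV' e2 (e1.trans hc))
    · exact Or.inl (lemA x₂ x₁ n h2 h1 hc.symm (fun y a b => hCVsq y b a) e2 (e1.trans hc))
    · exact absurd (e1.trans e2.symm) e3
  -- upper bound
  classical
  have hc3' : c * (x₁ * x₂) * c⁻¹ = x₁ := by
    rw [conj_mul c x₁ x₂ _ _ hc1 hc2, ← mul_assoc, ← hc, mul_assoc, h2, mul_one]
  have hcomp : ∀ r t a b d : G, t * a * t⁻¹ = b → r * b * r⁻¹ = d → (r * t) * a * (r * t)⁻¹ = d := by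
    intro r t a b d e1 e2
    rw [← e2, ← e1]; group
  have hcos : ∀ n r : G, n * x₁ * n⁻¹ = r * x₁ * r⁻¹ → n * x₂ * n⁻¹ = r * x₂ * r⁻¹ →
      r⁻¹ * n ∈ V := by
    intro n r e1 e2
    apply (hmemV _).2
    apply hCV
    · have : n * x₁ = r * x₁ * r⁻¹ * n := mul_inv_eq_iff_eq_mul.1 e1
      rw [mul_assoc, this]; group
    · have : n * x₂ = r * x₂ * r⁻¹ * n := mul_inv_eq_iff_eq_mul.1 e2
      rw [mul_assoc, this]; group
  let R : Finset G := {1, s, c, c * s, c * c, c * c * s}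
  have hsub : (N : Set G) ⊆ (R : Set G) * (V : Set G) := by
    intro n hn
    have hn' : n ∈ N := hn
    obtain ⟨e1, e2, e3⟩ := hact n hn'
    have key : ∀ r ∈ R, n * x₁ * n⁻¹ = r * x₁ * r⁻¹ → n * x₂ * n⁻¹ = r * x₂ * r⁻¹ →
        n ∈ (R : Set G) * (V : Set G) := by
      intro r hr f1 f2
      exact Set.mem_mul.2 ⟨r, hr, r⁻¹ * n, hcos n r f1 f2, by group⟩
    rcases e1 with e1 | e1 | e1 <;> rcases e2 with e2 | e2 | e2
    · exact absurd (e1.trans e2.symm) e3
    · exact key 1 (by simp [R]) (by simpa using e1) (by simpa using e2)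
    · exact key s (by simp [R]) (e1.trans hs1.symm) (e2.trans hs2.symm)
    · exact key (c * s) (by simp [R]) (e1.trans (hcomp c s _ _ _ hs1 hc1).symm)
        (e2.trans (hcomp c s _ _ _ hs2 hc3').symm)
    · exact absurd (e1.trans e2.symm) e3
    · exact key c (by simp [R]) (e1.trans hc1.symm) (e2.trans hc2.symm)
    · exact key (c * c) (by simp [R]) (e1.trans (hcomp c c _ _ _ hc1 hc2).symm)
        (e2.trans (hcomp c c _ _ _ hc2 hc3').symm)
    · exact key (c * c * s) (by simp [R])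
        (e1.trans (hcomp (c * c) s _ _ _ hs1 (hcomp c c _ _ _ hc1 hc2)).symm)
        (e2.trans (hcomp (c * c) s _ _ _ hs2 (hcomp c c _ _ _ hc3' hc1)).symm)
    · exact absurd (e1.trans e2.symm) e3
  have hle : Nat.card N ≤ 24 := by
    have h := Set.natCard_mul_le (s := (R : Set G)) (t := (V : Set G))
    have hR : Nat.card (R : Set G) ≤ 6 := by
      rw [Nat.card_coe_set_eq, Set.ncard_coe_finset]
      exact Finset.card_le_six
    have h3 : Nat.card N ≤ Nat.card ((R : Set G) * (V : Set G) : Set G) := by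
      rw [Nat.card_coe_set_eq]
      have : Nat.card N = (N : Set G).ncard := Nat.card_coe_set_eq _
      rw [this]
      exact Set.ncard_le_ncard hsub (Set.toFinite _)
    calc Nat.card N ≤ Nat.card (R : Set G) * Nat.card (V : Set G) := h3.trans h
      _ ≤ 6 * 4 := Nat.mul_le_mul hR (le_of_eq hcardV)
  -- lower bound
  set H : Subgroup G := C ⊔ V with hH
  have hHN : H ≤ N := sup_le hCN hVN
  have hHset : (H : Set G) = (C : Set G) * (V : Set G) :=
    Subgroup.coe_mul_of_left_le_normalizer_right C V hCN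
  have hd3 : 3 ∣ Nat.card H := hcardC ▸ Subgroup.card_dvd_of_le (le_sup_left : C ≤ H)
  have hd4 : 4 ∣ Nat.card H := hcardV ▸ Subgroup.card_dvd_of_le (le_sup_right : V ≤ H)
  have hdN : Nat.card H ∣ Nat.card N := Subgroup.card_dvd_of_le hHN
  have hposH : 0 < Nat.card H := Nat.card_pos
  have hposN : 0 < Nat.card N := Nat.card_pos
  have hVc1 : ∀ v ∈ V, v * x₁ = x₁ * v := by
    intro v hv
    rcases (hmemV v).1 hv with rfl | rfl | rfl | rfl
    · simp
    · rfl
    · exact hc.symm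
    · rw [mul_assoc, ← hc]
  have hVc2 : ∀ v ∈ V, v * x₂ = x₂ * v := by
    intro v hv
    rcases (hmemV v).1 hv with rfl | rfl | rfl | rfl
    · simp
    · exact hc
    · rfl
    · calc (x₁ * x₂) * x₂ = (x₂ * x₁) * x₂ := by rw [hc]
        _ = x₂ * (x₁ * x₂) := mul_assoc _ _ _
  have hsH : s ∉ H := by
    intro hs
    have hs' : s ∈ (C : Set G) * (V : Set G) := hHset ▸ hs
    obtain ⟨d, hd, v, hv, rfl⟩ := Set.mem_mul.1 hs'
    have f1 : d * x₁ * d⁻¹ = x₁ := by
      have : d * v * x₁ * (d * v)⁻¹ = d * (v * x₁) * v⁻¹ * d⁻¹ := by group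
      rw [hVc1 v hv] at this
      have e : d * (x₁ * v) * v⁻¹ * d⁻¹ = d * x₁ * d⁻¹ := by group
      exact e.symm.trans (this.symm.trans hs1)
    have f2 : d * x₂ * d⁻¹ = x₁ * x₂ := by
      rw [← hs2]
      have : d * v * x₂ * (d * v)⁻¹ = d * (v * x₂) * v⁻¹ * d⁻¹ := by group
      rw [this, hVc2 v hv]; group
    have g4 := lemA x₁ x₂ d h1 h2 hc hCVsq f1 f2
    have g3 : d ^ 3 = 1 := by
      have := pow_card_eq_one' (G := C) (x := ⟨d, hd⟩)
      rw [hcardC] at this
      exact congrArg Subtype.val this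
    have g1 : d = 1 := by
      rw [pow_succ, g3, one_mul] at g4
      exact g4
    rw [g1] at f2
    simp at f2
    exact hx1 f2
  have hne12 : Nat.card N ≠ Nat.card H := by
    intro h
    have : H = N := Subgroup.eq_of_le_of_card_ge hHN (le_of_eq h)
    exact hsH (this ▸ hsN)
  have hcardN : Nat.card N = 24 := by
    obtain ⟨k, hk⟩ := hdN
    obtain ⟨a, ha⟩ := hd3
    obtain ⟨b, hb⟩ := hd4
    have hk0 : k ≠ 0 := by rintro rfl; omega
    have hk1 : k ≠ 1 := by rintro rfl; omega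
    have hH12 : 12 ≤ Nat.card H := by omega
    have hk2 : 2 ≤ k := by omega
    have : Nat.card H * 2 ≤ Nat.card H * k := Nat.mul_le_mul_left _ hk2
    have hk3 : k < 3 := by
      by_contra hk3
      have : Nat.card H * 3 ≤ Nat.card H * k := Nat.mul_le_mul_left _ (by omega)
      omega
    have hk' : k = 2 := by omega
    subst hk'
    omega
  refine ⟨N, Cfsg.Agent.S1012.result hcardN ?_⟩
  rintro ⟨z, hz⟩ ho
  rw [Subgroup.orderOf_mk] at ho
  rcases hord z hz with h | h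
  · have := orderOf_dvd_of_pow_eq_one h
    rw [ho] at this
    omega
  · have := orderOf_dvd_of_pow_eq_one h
    rw [ho] at this
    omega

end Cfsg.Agent.Lib.Helper27.S4Recog
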