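import Mathlib
import Cfsg.Agent.Lib.Helper3.Zass

set_option autoImplicit false

namespace Cfsg.Agent.Lib.Helper27.ZassEl

open MulAction Subgroup Cfsg Cfsg.Agent.Lib.Helper3

variable {G Ω : Type*} [Group G] [MulAction G Ω]

/-- the number of elements carrying `(a,b)` to `(c,e)`. -/
theorem card_pair [Fintype G] [DecidableEq Ω] (hZ : IsZassenhausGroup G Ω) {a b c e : Ω}
    (hab : a ≠ b) (hce : c ≠ e) :
    (Finset.univ.filter (fun x : G => x • a = c ∧ x • b = e)).card =
      Nat.card ↥(stabilizer G a ⊓ stabilizer G b) := by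
  classical
  obtain ⟨y, hya, hyb⟩ := zass_two_trans hZ hab hce
  rw [Nat.card_eq_fintype_card, ← Finset.card_univ]
  symm
  refine Finset.card_bij (fun u _ => y * (u : G)) ?_ ?_ ?_
  · intro u _
    have hu := u.2
    rw [Subgroup.mem_inf, mem_stabilizer_iff, mem_stabilizer_iff] at hu
    simp only [Finset.mem_filter, Finset.mem_univ, true_and, mul_smul, hu.1, hu.2, hya, hyb,
      and_self]
  · intro u _ v _ h
    exact Subtype.ext (mul_left_cancel h)
  · intro x hx
    simp only [Finset.mem_filter, Finset.mem_univ, true_and] at hx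
    refine ⟨⟨y⁻¹ * x, ?_⟩, Finset.mem_univ _, by simp⟩
    rw [Subgroup.mem_inf, mem_stabilizer_iff, mem_stabilizer_iff, mul_smul, mul_smul, hx.1, hx.2,
      ← hya, ← hyb, inv_smul_smul, inv_smul_smul]
    exact ⟨rfl, rfl⟩

/-- a nontrivial element fixing `a` and `b` fixes nothing else. -/
theorem fix_sub (hZ : IsZassenhausGroup G Ω) {a b : Ω} (hab : a ≠ b) {t : G} (ht : t ≠ 1)
    (hta : t • a = a) (htb : t • b = b) (c : Ω) (hc : t • c = c) : c = a ∨ c = b := by
  by_contra hcon
  push Not at hcon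
  exact ht (zass_three hZ hab (Ne.symm hcon.2) (Ne.symm hcon.1) hta htb hc)

end Cfsg.Agent.Lib.Helper27.ZassEl
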