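import Mathlib
import Cfsg.Agent.Lib.Helper27.ZassEl

set_option autoImplicit false

namespace Cfsg.Agent.Lib.Helper27.ZassEl

open MulAction Subgroup Cfsg Cfsg.Agent.Lib.Helper3

variable {G Ω : Type*} [Group G] [MulAction G Ω]

theorem card_pair' [Fintype G] [DecidableEq Ω] (hZ : IsZassenhausGroup G Ω) {a b c e c' e' : Ω}
    (hab : a ≠ b) (hce : c ≠ e) (hce' : c' ≠ e') :
    (Finset.univ.filter (fun x : G => x • c = c' ∧ x • e = e')).card =
      Nat.card ↥(stabilizer G a ⊓ stabilizer G b) := by
  obtain ⟨y, hya, hyb⟩ := zass_two_trans hZ hab hce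
  rw [← card_pair hZ hab hce']
  refine Finset.card_bij (fun x _ => x * y) ?_ ?_ ?_
  · intro x hx
    simp only [Finset.mem_filter, Finset.mem_univ, true_and] at hx ⊢
    rw [mul_smul, mul_smul, hya, hyb]
    exact hx
  · intro x _ x' _ h
    exact mul_right_cancel h
  · intro x hx
    simp only [Finset.mem_filter, Finset.mem_univ, true_and] at hx
    refine ⟨x * y⁻¹, ?_, by simp⟩
    simp only [Finset.mem_filter, Finset.mem_univ, true_and]
    rw [mul_smul, mul_smul, ← hya, ← hyb, inv_smul_smul, inv_smul_smul]
    exact hx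

theorem card_single [Fintype G] [Fintype Ω] [DecidableEq Ω] (hZ : IsZassenhausGroup G Ω) {a b : Ω}
    (hab : a ≠ b) (c c' : Ω) :
    (Finset.univ.filter (fun x : G => x • c = c')).card =
      (Fintype.card Ω - 1) * Nat.card ↥(stabilizer G a ⊓ stabilizer G b) := by
  obtain ⟨e, he⟩ := zass_exists_ne hZ c
  rw [Finset.card_eq_sum_card_fiberwise (f := fun x : G => x • e) (t := Finset.univ.erase c')]
  · rw [Finset.sum_const_nat (m := Nat.card ↥(stabilizer G a ⊓ stabilizer G b)),
      Finset.card_erase_of_mem (Finset.mem_univ _), Finset.card_univ]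
    intro e' he'
    rw [Finset.mem_erase] at he'
    rw [← card_pair' hZ hab (Ne.symm he) (Ne.symm he'.1), Finset.filter_filter]
  · intro x hx
    simp only [Finset.coe_filter, Finset.mem_univ, true_and, Set.mem_ofPred_eq] at hx
    simp only [Finset.coe_erase, Finset.coe_univ, Set.mem_sdiff, Set.mem_univ, true_and,
      Set.mem_singleton_iff]
    intro h
    exact he (smul_left_cancel x (h.trans hx.symm))

theorem card_group [Fintype G] [Fintype Ω] [DecidableEq Ω] (hZ : IsZassenhausGroup G Ω) {a b : Ω}
    (hab : a ≠ b) :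
    Fintype.card G = Fintype.card Ω *
      ((Fintype.card Ω - 1) * Nat.card ↥(stabilizer G a ⊓ stabilizer G b)) := by
  rw [← Finset.card_univ (α := G),
    Finset.card_eq_sum_card_fiberwise (f := fun x : G => x • a) (t := Finset.univ)
      (fun _ _ => by simp)]
  rw [Finset.sum_const_nat (m := (Fintype.card Ω - 1) * Nat.card ↥(stabilizer G a ⊓ stabilizer G b)),
    Finset.card_univ]
  intro c _
  exact card_single hZ hab a c

/-- `∑ fix g = |G|`. -/
theorem sum_fix [Fintype G] [Fintype Ω] [DecidableEq Ω] (hZ : IsZassenhausGroup G Ω) {a b : Ω}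
    (hab : a ≠ b) :
    ∑ g : G, (Finset.univ.filter (fun c : Ω => g • c = c)).card = Fintype.card G := by
  have h := Finset.sum_card_bipartiteAbove_eq_sum_card_bipartiteBelow
    (s := (Finset.univ : Finset G)) (t := (Finset.univ : Finset Ω)) (fun g c => g • c = c)
  unfold Finset.bipartiteAbove Finset.bipartiteBelow at h
  rw [h, card_group hZ hab,
    Finset.sum_const_nat (m := (Fintype.card Ω - 1) * Nat.card ↥(stabilizer G a ⊓ stabilizer G b)),
    Finset.card_univ]
  intro c _
  exact card_single hZ hab c c

/-- `∑ fix g (fix g - 1) = |G|`. -/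
theorem sum_fix_offDiag [Fintype G] [Fintype Ω] [DecidableEq Ω] (hZ : IsZassenhausGroup G Ω)
    {a b : Ω} (hab : a ≠ b) :
    ∑ g : G, (Finset.univ.filter (fun c : Ω => g • c = c)).offDiag.card = Fintype.card G := by
  have h := Finset.sum_card_bipartiteAbove_eq_sum_card_bipartiteBelow
    (s := (Finset.univ : Finset G)) (t := (Finset.univ : Finset Ω).offDiag)
    (fun g p => g • p.1 = p.1 ∧ g • p.2 = p.2)
  unfold Finset.bipartiteAbove Finset.bipartiteBelow at h
  have h1 : ∀ g : G, (Finset.univ.filter (fun c : Ω => g • c = c)).offDiag =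
      (Finset.univ : Finset Ω).offDiag.filter (fun p => g • p.1 = p.1 ∧ g • p.2 = p.2) := by
    intro g
    ext p
    simp only [Finset.mem_offDiag, Finset.mem_filter, Finset.mem_univ, true_and]
    tauto
  simp_rw [h1]
  rw [h, card_group hZ hab,
    Finset.sum_const_nat (m := Nat.card ↥(stabilizer G a ⊓ stabilizer G b)),
    Finset.offDiag_card, Finset.card_univ, ← mul_assoc, Nat.mul_sub_one]
  intro p hp
  rw [Finset.mem_offDiag] at hp
  exact card_pair' hZ hab hp.2.2 hp.2.2

/-- `|G| = 2 f₀ + (n-1)(n-2)`, `f₀` the number of fixed-point-free elements. -/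
theorem card_fpf [Fintype G] [Fintype Ω] [DecidableEq Ω] [DecidableEq G]
    (hZ : IsZassenhausGroup G Ω) :
    Fintype.card G = 2 * (Finset.univ.filter (fun g : G => ∀ c : Ω, g • c ≠ c)).card +
      (Fintype.card Ω - 1) * (Fintype.card Ω - 2) := by
  obtain ⟨g0, hg0, a, b, hab, -, -⟩ := hZ.2.2.2.1
  have h1 := sum_fix hZ hab
  have h2 := sum_fix_offDiag hZ hab
  have hn : 2 ≤ Fintype.card Ω := by
    have : 1 < Fintype.card Ω := Fintype.one_lt_card_iff.2 ⟨a, b, hab⟩
    omega
  have key : ∀ g : G, (Finset.univ.filter (fun c : Ω => g • c = c)).offDiag.card + 2 =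
      2 * (Finset.univ.filter (fun c : Ω => g • c = c)).card +
        (2 * (if (∀ c : Ω, g • c ≠ c) then 1 else 0) +
          (if g = 1 then (Fintype.card Ω - 1) * (Fintype.card Ω - 2) else 0)) := by
    intro g
    rw [Finset.offDiag_card]
    by_cases hg : g = 1
    · subst hg
      have h3 : ¬ (∀ c : Ω, (1 : G) • c ≠ c) := fun h => h a (one_smul _ _)
      rw [if_neg h3]
      simp only [one_smul, Finset.filter_true, Finset.card_univ, if_true]
      obtain ⟨k, hk⟩ : ∃ k, Fintype.card Ω = k + 2 := ⟨Fintype.card Ω - 2, by omega⟩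
      rw [hk]
      have : (k + 2) * (k + 2) - (k + 2) = (k + 2) * (k + 1) := by
        rw [Nat.sub_eq_iff_eq_add (by nlinarith)]; ring
      rw [this]
      simp only [Nat.add_sub_cancel]
      have : k + 2 - 1 = k + 1 := by omega
      rw [this]; ring
    · rw [if_neg hg]
      have hle : (Finset.univ.filter (fun c : Ω => g • c = c)).card ≤ 2 := by
        by_contra hcon
        push Not at hcon
        rw [Finset.two_lt_card] at hcon
        obtain ⟨x, hx, y, hy, z, hz, hxy, hxz, hyz⟩ := hcon
        simp only [Finset.mem_filter, Finset.mem_univ, true_and] at hx hy hz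
        exact hg (zass_three hZ hxy hyz hxz hx hy hz)
      by_cases hf : ∀ c : Ω, g • c ≠ c
      · have : Finset.univ.filter (fun c : Ω => g • c = c) = ∅ := by
          rw [Finset.filter_eq_empty_iff]
          intro c _
          exact hf c
        rw [this, if_pos hf]
        simp
      · rw [if_neg hf]
        have hpos : 0 < (Finset.univ.filter (fun c : Ω => g • c = c)).card := by
          push Not at hf
          obtain ⟨c, hc⟩ := hf
          exact Finset.card_pos.2 ⟨c, by simp [hc]⟩
        generalize (Finset.univ.filter (fun c : Ω => g • c = c)).card = k at hle hpos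
        interval_cases k <;> simp
  have hsum := Finset.sum_congr (rfl : (Finset.univ : Finset G) = Finset.univ) (fun g _ => key g)
  rw [Finset.sum_add_distrib, Finset.sum_add_distrib, Finset.sum_add_distrib, ← Finset.mul_sum,
    ← Finset.mul_sum, h1, h2, Finset.sum_ite_eq' Finset.univ (1 : G), if_pos (Finset.mem_univ _),
    ← Finset.card_filter] at hsum
  simp only [Finset.sum_const, Finset.card_univ, smul_eq_mul] at hsum
  omega

end Cfsg.Agent.Lib.Helper27.ZassEl
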