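import Mathlib
import Cfsg.Agent.Lib.Helper27.ZassCount
import Cfsg.Agent.Lib.Helper22.Frob
import Cfsg.Agent.S0040
import Cfsg.Agent.S0738
import Cfsg.Agent.S0879

set_option autoImplicit false

namespace Cfsg.Agent.Lib.Helper27.ZassOdd

open MulAction Subgroup Cfsg Cfsg.Agent.Lib.Helper3 Cfsg.Agent.Lib.Helper27.ZassEl

variable {G Ω : Type*} [Group G] [MulAction G Ω]

theorem mem_E {a b : Ω} {x : G} :
    x ∈ (stabilizer G a ⊓ stabilizer G b : Subgroup G) ↔ x • a = a ∧ x • b = b := by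
  rw [Subgroup.mem_inf, mem_stabilizer_iff, mem_stabilizer_iff]

theorem E_ne_bot (hZ : IsZassenhausGroup G Ω) {a b : Ω} (hab : a ≠ b) :
    (stabilizer G a ⊓ stabilizer G b : Subgroup G) ≠ ⊥ := by
  obtain ⟨x, hx1, hxa, hxb⟩ := zass_exists_fix_two hZ hab
  intro h
  have : x ∈ (stabilizer G a ⊓ stabilizer G b : Subgroup G) := mem_E.2 ⟨hxa, hxb⟩
  rw [h, Subgroup.mem_bot] at this
  exact hx1 this

theorem frobE (hZ : IsZassenhausGroup G Ω) {a b : Ω} (hab : a ≠ b) :
    IsFrobeniusComplement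
      ((stabilizer G a ⊓ stabilizer G b : Subgroup G).subgroupOf (stabilizer G a)) := by
  rw [Cfsg.Agent.Lib.Helper22.isFrobeniusComplement_iff]
  refine ⟨?_, ?_, ?_⟩
  · intro h
    obtain ⟨x, hx1, hxa, hxb⟩ := zass_exists_fix_two hZ hab
    have : (⟨x, hxa⟩ : stabilizer G a) ∈
        (stabilizer G a ⊓ stabilizer G b : Subgroup G).subgroupOf (stabilizer G a) := by
      rw [Subgroup.mem_subgroupOf]; exact mem_E.2 ⟨hxa, hxb⟩
    rw [h, Subgroup.mem_bot] at this
    exact hx1 (congrArg Subtype.val this)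
  · intro h
    obtain ⟨c, hca, hcb⟩ := zass_exists_third hZ hab
    obtain ⟨g, hga, hgb⟩ := zass_two_trans hZ hab (Ne.symm hca)
    have : (⟨g, hga⟩ : stabilizer G a) ∈
        (stabilizer G a ⊓ stabilizer G b : Subgroup G).subgroupOf (stabilizer G a) := by
      rw [h]; trivial
    rw [Subgroup.mem_subgroupOf] at this
    exact hcb (hgb.symm.trans (mem_E.1 this).2)
  · rintro ⟨g, hg⟩ hgE ⟨x, hx⟩ hxE hgx
    rw [Subgroup.mem_subgroupOf] at hgE hxE hgx
    simp only [Subgroup.coe_mul, Subgroup.coe_inv] at hgx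
    simp only at hgE hxE
    have hga : g • a = a := hg
    have hgb : g • b ≠ b := fun h => hgE (mem_E.2 ⟨hga, h⟩)
    have hgba : g • b ≠ a := by
      intro h
      exact hab (smul_left_cancel g (hga.trans h.symm))
    have h3 : x • g • b = g • b := by
      have := (mem_E.1 hgx).2
      rw [mul_smul, mul_smul, inv_smul_eq_iff] at this
      exact this
    apply Subtype.ext
    exact zass_three hZ hab (Ne.symm hgb) (Ne.symm hgba) (mem_E.1 hxE).1 (mem_E.1 hxE).2 h3

theorem abelian_cyclic [Finite G] (hZ : IsZassenhausGroup G Ω) {a b : Ω} (hab : a ≠ b)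
    (B : Subgroup G) (hB : B ≤ stabilizer G a ⊓ stabilizer G b) (hBc : IsMulCommutative B) :
    IsCyclic B := by
  have hBa : B ≤ stabilizer G a := hB.trans inf_le_left
  have e := Subgroup.subgroupOfEquivOfLe hBa
  have hc : IsMulCommutative (B.subgroupOf (stabilizer G a)) := by
    refine ⟨⟨fun x y => ?_⟩⟩
    apply e.injective
    rw [map_mul, map_mul]
    exact hBc.is_comm.comm _ _
  have h := Cfsg.Agent.S0040.abelian_cyclic _ (frobE hZ hab) (B.subgroupOf (stabilizer G a))
    (by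
      intro x hx
      rw [Subgroup.mem_subgroupOf] at hx ⊢
      exact hB hx) hc
  exact isCyclic_of_surjective e e.surjective

theorem pgroup_unique [Finite G] (hZ : IsZassenhausGroup G Ω) {a b : Ω} (hab : a ≠ b)
    (q : ℕ) [Fact q.Prime] (Q : Subgroup G) (hQE : Q ≤ stabilizer G a ⊓ stabilizer G b)
    (hQ : IsPGroup q Q) :
    ∀ x y : Q, orderOf x = q → orderOf y = q → x ∈ Subgroup.zpowers y := by
  apply Cfsg.Agent.Lib.Lead.unique_of_abelian_cyclic hQ
  intro B hB
  have h1 : IsMulCommutative (B.map Q.subtype) := Subgroup.map_isMulCommutative _ _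
  have h2 := abelian_cyclic hZ hab (B.map Q.subtype) (by
    rintro _ ⟨y, -, rfl⟩
    exact hQE y.2) h1
  exact isCyclic_of_surjective (B.equivMapOfInjective _ Q.subtype_injective).symm
    (B.equivMapOfInjective _ Q.subtype_injective).symm.surjective

theorem pgroup_cyclic [Finite G] (hZ : IsZassenhausGroup G Ω) {a b : Ω} (hab : a ≠ b)
    (q : ℕ) [Fact q.Prime] (hq2 : q ≠ 2) (Q : Subgroup G)
    (hQE : Q ≤ stabilizer G a ⊓ stabilizer G b) (hQ : IsPGroup q Q) : IsCyclic Q := by
  rcases Cfsg.Agent.S0016.main q hQ (pgroup_unique hZ hab q Q hQE hQ) with h | ⟨h, -⟩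
  · exact h
  · exact absurd h hq2

/-- `|E|` divides `n - 2`. -/
theorem card_E_dvd [Finite G] [Fintype Ω] (hZ : IsZassenhausGroup G Ω) {a b : Ω} (hab : a ≠ b) :
    Nat.card ↥(stabilizer G a ⊓ stabilizer G b) ∣ Fintype.card Ω - 2 := by
  classical
  have h := Cfsg.Agent.S0738.free_dvd (E := ↥(stabilizer G a ⊓ stabilizer G b)) (X := Ω)
    ({a, b}ᶜ : Set Ω) ?_ ?_
  · rw [Set.ncard_compl, Set.ncard_pair hab, Nat.card_eq_fintype_card (α := Ω)] at h
    exact h
  · rintro ⟨e, he⟩ x hx
    rw [mem_E] at he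
    simp only [Set.mem_compl_iff, Set.mem_insert_iff, Set.mem_singleton_iff, not_or] at hx ⊢
    constructor
    · intro h
      apply hx.1
      have h' : e • x = a := h
      exact smul_left_cancel e (h'.trans he.1.symm)
    · intro h
      apply hx.2
      have h' : e • x = b := h
      exact smul_left_cancel e (h'.trans he.2.symm)
  · rintro ⟨e, he⟩ x hx h
    rw [mem_E] at he
    simp only [Set.mem_compl_iff, Set.mem_insert_iff, Set.mem_singleton_iff, not_or] at hx
    apply Subtype.ext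
    exact zass_three hZ hab (Ne.symm hx.2) (Ne.symm hx.1) he.1 he.2 h

end Cfsg.Agent.Lib.Helper27.ZassOdd
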