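import Mathlib
import Cfsg.Agent.Lib.Helper27.ZassOdd
import Cfsg.Agent.Lib.Helper1.CoprimeSylow

set_option autoImplicit false

namespace Cfsg.Agent.Lib.Helper27.ZassOdd

open MulAction Subgroup Cfsg Cfsg.Agent.Lib.Helper3 Cfsg.Agent.Lib.Helper27.ZassEl
open Cfsg.Agent.Lib.Helper1

variable {G Ω : Type*} [Group G] [MulAction G Ω]

/-- the `q`-part of `|G|` is the `q`-part of `|E|` for odd `q ∣ |E|`. -/
theorem factorization_eq [Finite G] [Fintype Ω] (hZ : IsZassenhausGroup G Ω) {a b : Ω}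
    (hab : a ≠ b) (q : ℕ) (hq : q.Prime) (hq2 : q ≠ 2)
    (hqd : q ∣ Nat.card ↥(stabilizer G a ⊓ stabilizer G b)) :
    (Nat.card G).factorization q =
      (Nat.card ↥(stabilizer G a ⊓ stabilizer G b)).factorization q := by
  classical
  have := Fintype.ofFinite G
  have h1 := card_group hZ hab
  have h2 := card_E_dvd hZ hab
  obtain ⟨c, hca, hcb⟩ := zass_exists_third hZ hab
  have hcard3 : 2 < Fintype.card Ω := by
    rw [Fintype.two_lt_card_iff]
    exact ⟨a, b, c, hab, Ne.symm hca, Ne.symm hcb⟩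
  have hq3 : q ∣ Fintype.card Ω - 2 := hqd.trans h2
  have hn : ¬ q ∣ Fintype.card Ω := by
    intro h
    have h4 : q ∣ Fintype.card Ω - (Fintype.card Ω - 2) := Nat.dvd_sub h hq3
    have h5 : Fintype.card Ω - (Fintype.card Ω - 2) = 2 := by omega
    rw [h5] at h4
    exact hq2 ((Nat.prime_dvd_prime_iff_eq hq Nat.prime_two).1 h4)
  have hn1 : ¬ q ∣ Fintype.card Ω - 1 := by
    intro h
    have h4 : q ∣ (Fintype.card Ω - 1) - (Fintype.card Ω - 2) := Nat.dvd_sub h hq3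
    have h5 : (Fintype.card Ω - 1) - (Fintype.card Ω - 2) = 1 := by omega
    rw [h5] at h4
    exact hq.one_lt.ne' (Nat.dvd_one.1 h4)
  have hd0 : Nat.card ↥(stabilizer G a ⊓ stabilizer G b) ≠ 0 := Nat.card_pos.ne'
  rw [Nat.card_eq_fintype_card (α := G), h1, Nat.factorization_mul (by omega)
    (Nat.mul_ne_zero (by omega) hd0), Nat.factorization_mul (by omega) hd0]
  simp only [Finsupp.coe_add, Pi.add_apply]
  rw [Nat.factorization_eq_zero_of_not_dvd hn, Nat.factorization_eq_zero_of_not_dvd hn1]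
  simp

/-- an involution normalising a `q`-subgroup of `E` and centralising an element of order `q` of it
centralises it. -/
theorem t_centralizes [Finite G] (hZ : IsZassenhausGroup G Ω) {a b : Ω} (hab : a ≠ b)
    (q : ℕ) [hqf : Fact q.Prime] (hq2 : q ≠ 2) (Q : Subgroup G)
    (hQE : Q ≤ stabilizer G a ⊓ stabilizer G b) (hQ : IsPGroup q Q) (t : G) (ht : t * t = 1)
    (htQ : ∀ x ∈ Q, t * x * t⁻¹ ∈ Q) (x₀ : G) (hx₀ : x₀ ∈ Q) (ho : orderOf x₀ = q)
    (hc : t * x₀ * t⁻¹ = x₀) : ∀ x ∈ Q, t * x * t⁻¹ = x := by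
  intro x hx
  by_contra hne
  set u := x⁻¹ * (t * x * t⁻¹) with hu
  have huQ : u ∈ Q := Q.mul_mem (Q.inv_mem hx) (htQ x hx)
  have hu1 : u ≠ 1 := by
    intro h
    apply hne
    rw [hu, inv_mul_eq_one] at h
    exact h.symm
  have htinv : t⁻¹ = t := inv_eq_of_mul_eq_one_left ht
  have hinv : t * u * t⁻¹ = u⁻¹ := by
    rw [hu, htinv]
    calc t * (x⁻¹ * (t * x * t)) * t = t * x⁻¹ * (t * x * (t * t)) := by group
      _ = t * x⁻¹ * t * x := by rw [ht]; group
      _ = (x⁻¹ * (t * x * t))⁻¹ := by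
        rw [mul_inv_rev, mul_inv_rev, mul_inv_rev, inv_inv, htinv]; group
  -- element of order q in zpowers u
  have hpg : IsPGroup q (zpowers u) := hQ.to_le (by rw [zpowers_le]; exact huQ)
  have hnt : Nontrivial (zpowers u) := by
    refine ⟨⟨⟨u, mem_zpowers u⟩, 1, ?_⟩⟩
    intro h
    exact hu1 (congrArg Subtype.val h)
  obtain ⟨k, hk⟩ := IsPGroup.iff_card.1 hpg
  have hk0 : k ≠ 0 := by
    rintro rfl
    rw [pow_zero] at hk
    have := Finite.one_lt_card (α := zpowers u)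
    omega
  obtain ⟨v, hv⟩ := exists_prime_orderOf_dvd_card' (G := zpowers u) q
    (by rw [hk]; exact dvd_pow_self q hk0)
  have hvQ : (v : G) ∈ Q := (zpowers_le.2 huQ) v.2
  have h1 := pgroup_unique hZ hab q Q hQE hQ ⟨x₀, hx₀⟩ ⟨v, hvQ⟩
    (by rw [← Subgroup.orderOf_coe]; exact ho)
    (by rw [← Subgroup.orderOf_coe]; simp only; rw [Subgroup.orderOf_coe]; exact hv)
  obtain ⟨m, hm⟩ := Subgroup.mem_zpowers_iff.1 h1
  obtain ⟨j, hj⟩ := Subgroup.mem_zpowers_iff.1 v.2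
  have hx₀u : x₀ = u ^ (j * m) := by
    have := congrArg Subtype.val hm
    simp only [Subgroup.coe_zpow] at this
    rw [← this, ← hj, zpow_mul]
  have h2 : t * x₀ * t⁻¹ = x₀⁻¹ := by
    rw [hx₀u, ← conj_zpow, hinv, inv_zpow]
  rw [hc] at h2
  have h3 : x₀ ^ 2 = 1 := by
    rw [sq]
    nth_rewrite 1 [h2]
    exact inv_mul_cancel _
  have h4 := orderOf_dvd_of_pow_eq_one h3
  rw [ho] at h4
  exact hq2 ((Nat.prime_dvd_prime_iff_eq hqf.out Nat.prime_two).1 h4)

/-- an involutory twisted action on a coset of an odd order subgroup has a fixed point -/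
theorem fixed_in_coset [Finite G] (Y : Subgroup G) (hY : Odd (Nat.card Y)) (t g : G)
    (ht : t * t = 1) (htY : ∀ y ∈ Y, t * y * t⁻¹ ∈ Y) (hg : g⁻¹ * (t * g * t⁻¹) ∈ Y) :
    ∃ y ∈ Y, t * (g * y) * t⁻¹ = g * y := by
  classical
  have := Fintype.ofFinite Y
  have htinv : t⁻¹ = t := inv_eq_of_mul_eq_one_left ht
  let φ : Function.End Y := fun y => ⟨g⁻¹ * (t * (g * y) * t⁻¹), by
    have : g⁻¹ * (t * (g * y) * t⁻¹) = (g⁻¹ * (t * g * t⁻¹)) * (t * y * t⁻¹) := by group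
    rw [this]
    exact Y.mul_mem hg (htY y y.2)⟩
  have hφ : φ ^ 2 ^ 1 = 1 := by
    rw [pow_one, sq]
    funext y
    apply Subtype.ext
    change g⁻¹ * (t * (g * (g⁻¹ * (t * (g * y) * t⁻¹))) * t⁻¹) = y
    rw [htinv]
    calc g⁻¹ * (t * (g * (g⁻¹ * (t * (g * y) * t))) * t)
        = g⁻¹ * ((t * t) * (g * y) * (t * t)) := by group
      _ = y := by rw [ht]; group
  have h := Equiv.Perm.card_fixedPoints_modEq (α := Y) (f := φ) (p := 2) (n := 1) hφ
  have hpos : 0 < Fintype.card (Function.fixedPoints φ) := by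
    rw [Nat.card_eq_fintype_card] at hY
    rw [Nat.odd_iff] at hY
    unfold Nat.ModEq at h
    by_contra h0
    have h0' : Fintype.card (Function.fixedPoints φ) = 0 := by omega
    rw [h0'] at h
    omega
  obtain ⟨⟨y, hy⟩⟩ := Fintype.card_pos_iff.1 hpos
  refine ⟨y, y.2, ?_⟩
  have h1 : g⁻¹ * (t * (g * y) * t⁻¹) = y := congrArg Subtype.val hy
  calc t * (g * y) * t⁻¹ = g * (g⁻¹ * (t * (g * y) * t⁻¹)) := by group
    _ = g * y := by rw [h1]

end Cfsg.Agent.Lib.Helper27.ZassOdd
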