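import Mathlib
import Cfsg.Agent.Lib.Helper27.ZassOdd2

set_option autoImplicit false

namespace Cfsg.Agent.Lib.Helper27.ZassOdd

open MulAction Subgroup Cfsg Cfsg.Agent.Lib.Helper3 Cfsg.Agent.Lib.Helper27.ZassEl
open Cfsg.Agent.Lib.Helper1

variable {G Ω : Type*} [Group G] [MulAction G Ω]

theorem invol_mem_normalizer (H : Subgroup G) (t : G) (ht : t * t = 1)
    (h : ∀ x ∈ H, t * x * t⁻¹ ∈ H) : t ∈ normalizer (H : Set G) := by
  have htinv : t⁻¹ = t := inv_eq_of_mul_eq_one_left ht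
  rw [mem_normalizer_iff]
  intro x
  refine ⟨h x, fun hx => ?_⟩
  have h2 := h _ hx
  have h3 : t * (t * x * t⁻¹) * t⁻¹ = x := by
    rw [htinv]
    calc t * (t * x * t) * t = (t * t) * x * (t * t) := by group
      _ = x := by rw [ht]; group
  rwa [h3] at h2

theorem cent_trivial [Finite G] [Fintype Ω] (hZ : IsZassenhausGroup G Ω) {a b : Ω} (hab : a ≠ b)
    (hodd : Odd (Nat.card ↥(stabilizer G a ⊓ stabilizer G b)))
    (hnil : ∀ q : ℕ, q.Prime → q ∣ Nat.card ↥(stabilizer G a ⊓ stabilizer G b) →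
      ¬ ∃ N : Subgroup G, N.Normal ∧ N.index = q ^ (Nat.card G).factorization q)
    (t : G) (ht : t * t = 1) (hta : t • a = b) (htb : t • b = a) :
    ∀ h ∈ (stabilizer G a ⊓ stabilizer G b : Subgroup G), t * h * t⁻¹ = h → h = 1 := by
  classical
  by_contra hcon
  push Not at hcon
  obtain ⟨h₀, hh₀E, hh₀c, hh₀1⟩ := hcon
  have htinv : t⁻¹ = t := inv_eq_of_mul_eq_one_left ht
  have ht1 : t ≠ 1 := by
    rintro rfl
    rw [one_smul] at hta
    exact hab hta
  have hto : orderOf t = 2 := orderOf_eq_prime (by rw [sq]; exact ht) ht1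
  have htN : ∀ x ∈ (stabilizer G a ⊓ stabilizer G b : Subgroup G),
      t * x * t⁻¹ ∈ (stabilizer G a ⊓ stabilizer G b : Subgroup G) :=
    fun x hx => Cfsg.Agent.S0879.conj_mem_of_pres (Or.inr ⟨hta, htb⟩) hx
  obtain ⟨I, hI⟩ : ∃ I : Subgroup G, I = (stabilizer G a ⊓ stabilizer G b) ⊓ centralizer {t} :=
    ⟨_, rfl⟩
  have hmemI : ∀ x, x ∈ I ↔ x ∈ (stabilizer G a ⊓ stabilizer G b : Subgroup G) ∧
      t * x * t⁻¹ = x := by
    intro x
    rw [hI, Subgroup.mem_inf, mem_centralizer_singleton_iff, mul_inv_eq_iff_eq_mul,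
      eq_comm (a := x * t)]
  have hIE : I ≤ stabilizer G a ⊓ stabilizer G b := by rw [hI]; exact inf_le_left
  have hI1 : Nat.card I ≠ 1 := by
    intro h
    rw [Subgroup.card_eq_one] at h
    have : h₀ ∈ I := (hmemI h₀).2 ⟨hh₀E, hh₀c⟩
    rw [h, Subgroup.mem_bot] at this
    exact hh₀1 this
  obtain ⟨q, hqdef⟩ : ∃ q, (Nat.card I).minFac = q := ⟨_, rfl⟩
  have hq : q.Prime := hqdef ▸ Nat.minFac_prime hI1
  have hqI : q ∣ Nat.card I := hqdef ▸ Nat.minFac_dvd _
  have hqd : q ∣ Nat.card ↥(stabilizer G a ⊓ stabilizer G b) := hqI.trans (card_dvd_of_le hIE)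
  have hq2 : q ≠ 2 := by
    rintro rfl
    rw [Nat.odd_iff] at hodd
    omega
  have := Fact.mk hq
  obtain ⟨⟨x₀, hx₀I⟩, hx₀'⟩ := exists_prime_orderOf_dvd_card' (G := I) q hqI
  have ho : orderOf x₀ = q := by
    rw [← Subgroup.orderOf_coe] at hx₀'
    exact hx₀'
  have hx₀E := ((hmemI x₀).1 hx₀I).1
  have hx₀c := ((hmemI x₀).1 hx₀I).2
  have hx₀1 : x₀ ≠ 1 := by
    rintro rfl
    rw [orderOf_one] at ho
    exact hq.one_lt.ne ho
  -- invariant Sylow
  have hAE : zpowers t ≤ normalizer ((stabilizer G a ⊓ stabilizer G b : Subgroup G) : Set G) :=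
    zpowers_le.2 (Cfsg.Agent.S0879.mem_normalizer_of_pres (Or.inr ⟨hta, htb⟩))
  have hcop : (Nat.card (zpowers t)).Coprime (Nat.card ↥(stabilizer G a ⊓ stabilizer G b)) := by
    rw [Nat.card_zpowers, hto]
    exact Nat.coprime_two_left.2 hodd
  have hU : IsPGroup q (zpowers x₀) := IsPGroup.of_card (n := 1) (by rw [Nat.card_zpowers, ho, pow_one])
  have hUA : zpowers t ≤ normalizer ((zpowers x₀ : Subgroup G) : Set G) := by
    rw [zpowers_le]
    apply invol_mem_normalizer _ t ht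
    intro x hx
    obtain ⟨k, rfl⟩ := Subgroup.mem_zpowers_iff.1 hx
    rw [← conj_zpow, hx₀c]
    exact zpow_mem (mem_zpowers x₀) k
  obtain ⟨P, hUP, hAP⟩ := coprime_invariant_psubgroup_le (zpowers t)
    (stabilizer G a ⊓ stabilizer G b) hAE hcop (Or.inl inferInstance) q (zpowers x₀)
    (zpowers_le.2 hx₀E) hU hUA
  obtain ⟨Q, hQdef⟩ : ∃ Q : Subgroup G, Q = sylImg P := ⟨_, rfl⟩
  rw [← hQdef] at hUP hAP
  have hQE : Q ≤ stabilizer G a ⊓ stabilizer G b := hQdef ▸ sylImg_le P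
  have hQp : IsPGroup q Q := hQdef ▸ sylImg_isPGroup P
  have hx₀Q : x₀ ∈ Q := hUP (mem_zpowers x₀)
  have htNQ : t ∈ normalizer (Q : Set G) := hAP (mem_zpowers t)
  have htQ : ∀ x ∈ Q, t * x * t⁻¹ ∈ Q := fun x hx => (mem_normalizer_iff.1 htNQ x).1 hx
  have hcQ := t_centralizes hZ hab q hq2 Q hQE hQp t ht htQ x₀ hx₀Q ho hx₀c
  have hcardQ : Nat.card Q = q ^ (Nat.card G).factorization q := by
    rw [factorization_eq hZ hab q hq hq2 hqd, hQdef,
      card_map_of_injective (subtype_injective _), P.card_eq_multiplicity]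
  obtain ⟨P', hP'⟩ : ∃ P' : Sylow q G, (P' : Subgroup G) = Q := ⟨Sylow.ofCard Q hcardQ, rfl⟩
  have hQI : Q ≤ I := fun x hx => (hmemI x).2 ⟨hQE hx, hcQ x hx⟩
  by_cases hNC : normalizer ((P' : Subgroup G) : Set G) ≤ centralizer ((P' : Subgroup G) : Set G)
  · apply hnil q hq hqd
    refine ⟨(MonoidHom.transferSylow P' hNC).ker, inferInstance, ?_⟩
    rw [(MonoidHom.ker_transferSylow_isComplement' P' hNC).symm.index_eq_card, hP', hcardQ]
  · rw [hP'] at hNC
    obtain ⟨g, hgN, hgC⟩ := SetLike.not_le_iff_exists.1 hNC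
    have hgx₀ : g * x₀ * g⁻¹ ∈ Q := (mem_normalizer_iff.1 hgN x₀).1 hx₀Q
    have hpres := Cfsg.Agent.S0879.pres_of_conj hZ hab hx₀1 hx₀E (hQE hgx₀)
    obtain ⟨g', hg'E, hg'N, hg'C⟩ : ∃ g' : G, g' ∈ (stabilizer G a ⊓ stabilizer G b : Subgroup G) ∧
        g' ∈ normalizer (Q : Set G) ∧ g' ∉ centralizer (Q : Set G) := by
      rcases hpres with ⟨h1, h2⟩ | ⟨h1, h2⟩
      · exact ⟨g, mem_E.2 ⟨h1, h2⟩, hgN, hgC⟩
      · refine ⟨g * t, mem_E.2 ⟨by rw [mul_smul, hta, h2], by rw [mul_smul, htb, h1]⟩,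
          mul_mem hgN htNQ, ?_⟩
        intro hc
        apply hgC
        have htC : t ∈ centralizer (Q : Set G) := by
          rw [mem_centralizer_iff]
          intro x hx
          have := hcQ x hx
          rw [mul_inv_eq_iff_eq_mul] at this
          exact this.symm
        have := mul_mem hc (inv_mem htC)
        rwa [mul_inv_cancel_right] at this
    obtain ⟨Y, hY⟩ : ∃ Y : Subgroup G,
        Y = (stabilizer G a ⊓ stabilizer G b) ⊓ centralizer (Q : Set G) := ⟨_, rfl⟩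
    have hmemY : ∀ y, y ∈ Y ↔ y ∈ (stabilizer G a ⊓ stabilizer G b : Subgroup G) ∧
        ∀ x ∈ Q, y * x * y⁻¹ = x := by
      intro y
      rw [hY, Subgroup.mem_inf, mem_centralizer_iff]
      refine and_congr Iff.rfl (forall_congr' fun x => forall_congr' fun _ => ?_)
      rw [mul_inv_eq_iff_eq_mul, eq_comm]
    have hYodd : Odd (Nat.card Y) :=
      Odd.of_dvd_nat hodd (card_dvd_of_le (by rw [hY]; exact inf_le_left))
    have htY : ∀ y ∈ Y, t * y * t⁻¹ ∈ Y := by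
      intro y hy
      rw [hmemY] at hy ⊢
      refine ⟨htN y hy.1, fun x hx => ?_⟩
      have h1 : t⁻¹ * x * t = x := by
        have := hcQ x hx
        calc t⁻¹ * x * t = t⁻¹ * (t * x * t⁻¹) * t := by rw [this]
          _ = x := by group
      calc t * y * t⁻¹ * x * (t * y * t⁻¹)⁻¹ = t * (y * (t⁻¹ * x * t) * y⁻¹) * t⁻¹ := by group
        _ = x := by rw [h1, hy.2 x hx, hcQ x hx]
    have hgY : g'⁻¹ * (t * g' * t⁻¹) ∈ Y := by
      rw [hmemY]
      refine ⟨mul_mem (inv_mem hg'E) (htN g' hg'E), fun x hx => ?_⟩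
      have h1 : t⁻¹ * x * t = x := by
        have := hcQ x hx
        calc t⁻¹ * x * t = t⁻¹ * (t * x * t⁻¹) * t := by rw [this]
          _ = x := by group
      have h2 : g' * x * g'⁻¹ ∈ Q := (mem_normalizer_iff.1 hg'N x).1 hx
      calc g'⁻¹ * (t * g' * t⁻¹) * x * (g'⁻¹ * (t * g' * t⁻¹))⁻¹
          = g'⁻¹ * (t * (g' * (t⁻¹ * x * t) * g'⁻¹) * t⁻¹) * g' := by group
        _ = x := by rw [h1, hcQ _ h2]; group
    obtain ⟨y₀, hy₀, hfix⟩ := fixed_in_coset Y hYodd t g' ht htY hgY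
    have hy₀' := (hmemY y₀).1 hy₀
    have hyI : g' * y₀ ∈ I := (hmemI _).2 ⟨mul_mem hg'E hy₀'.1, hfix⟩
    have hy₀C : y₀ ∈ centralizer (Q : Set G) := by
      rw [hY] at hy₀
      exact hy₀.2
    have hyN : g' * y₀ ∈ normalizer (Q : Set G) :=
      mul_mem hg'N (centralizer_le_normalizer _ hy₀C)
    have hyC : g' * y₀ ∉ centralizer (Q : Set G) := by
      intro hc
      apply hg'C
      have := mul_mem hc (inv_mem hy₀C)
      rwa [mul_inv_cancel_right] at this
    -- Mathlib's lemma in `I`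
    have hP'I : (P' : Subgroup G) ≤ I := hP' ▸ hQI
    have hcyc : IsCyclic (P'.subtype hP'I : Subgroup I) := by
      have hQc : IsCyclic Q := pgroup_cyclic hZ hab q hq2 Q hQE hQp
      rw [Sylow.coe_subtype, hP']
      exact isCyclic_of_surjective (subgroupOfEquivOfLe hQI).symm
        (subgroupOfEquivOfLe hQI).symm.surjective
    have hNC' := IsCyclic.normalizer_le_centralizer (G := I) (p := q) hqdef
      (P := P'.subtype hP'I) hcyc
    have h1 : (⟨g' * y₀, hyI⟩ : I) ∈ normalizer ((P'.subtype hP'I : Subgroup I) : Set I) := by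
      rw [mem_normalizer_iff]
      intro h
      rw [Sylow.coe_subtype, hP', mem_subgroupOf, mem_subgroupOf]
      exact mem_normalizer_iff.1 hyN h
    have h2 := hNC' h1
    apply hyC
    rw [mem_centralizer_iff] at h2 ⊢
    intro x hx
    have h3 := h2 ⟨x, hQI hx⟩ (by
      change (⟨x, hQI hx⟩ : I) ∈ (P'.subtype hP'I : Subgroup I)
      rw [Sylow.coe_subtype, hP', mem_subgroupOf]
      exact hx)
    exact congrArg Subtype.val h3

end Cfsg.Agent.Lib.Helper27.ZassOdd
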