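import Mathlib
import Cfsg.Agent.Lib.Helper27.ZassOdd3
import Cfsg.Agent.S0740

set_option autoImplicit false

namespace Cfsg.Agent.Lib.Helper27.ZassOdd

open MulAction Subgroup Cfsg Cfsg.Agent.Lib.Helper3 Cfsg.Agent.Lib.Helper27.ZassEl

variable {G Ω : Type*} [Group G] [MulAction G Ω]

/-- the main structural statement for odd two-point stabilisers. -/
theorem main [Finite G] [Fintype Ω] (hZ : IsZassenhausGroup G Ω) {a b : Ω} (hab : a ≠ b)
    (hodd : Odd (Nat.card ↥(stabilizer G a ⊓ stabilizer G b)))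
    (hnil : ∀ q : ℕ, q.Prime → q ∣ Nat.card ↥(stabilizer G a ⊓ stabilizer G b) →
      ¬ ∃ N : Subgroup G, N.Normal ∧ N.index = q ^ (Nat.card G).factorization q) :
    (∀ x ∈ (stabilizer G a ⊓ stabilizer G b : Subgroup G),
      ∀ y ∈ (stabilizer G a ⊓ stabilizer G b : Subgroup G), x * y = y * x) ∧
    ∀ s : G, s • a = b → s • b = a → ∀ h ∈ (stabilizer G a ⊓ stabilizer G b : Subgroup G),
      s * h * s⁻¹ = h⁻¹ := by
  obtain ⟨t, hto, hta, htb⟩ := Cfsg.Agent.S0740.odd_case hZ hab (Nat.not_even_iff_odd.2 hodd)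
  have ht : t * t = 1 := by rw [← sq, ← hto, pow_orderOf_eq_one]
  have htinv : t⁻¹ = t := inv_eq_of_mul_eq_one_left ht
  have hfpf := cent_trivial hZ hab hodd hnil t ht hta htb
  have htN : ∀ x ∈ (stabilizer G a ⊓ stabilizer G b : Subgroup G),
      t * x * t⁻¹ ∈ (stabilizer G a ⊓ stabilizer G b : Subgroup G) :=
    fun x hx => Cfsg.Agent.S0879.conj_mem_of_pres (Or.inr ⟨hta, htb⟩) hx
  let φ : ↥(stabilizer G a ⊓ stabilizer G b) →* ↥(stabilizer G a ⊓ stabilizer G b) :=
    { toFun := fun x => ⟨t * x * t⁻¹, htN x x.2⟩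
      map_one' := by apply Subtype.ext; simp
      map_mul' := by
        intro x y
        apply Subtype.ext
        simp only [Subgroup.coe_mul]
        group }
  have hφ : MonoidHom.FixedPointFree φ := by
    intro x hx
    apply Subtype.ext
    exact hfpf x x.2 (congrArg Subtype.val hx)
  have hinv : Function.Involutive φ := by
    intro x
    apply Subtype.ext
    change t * (t * x * t⁻¹) * t⁻¹ = x
    rw [htinv]
    calc t * (t * x * t) * t = (t * t) * x * (t * t) := by group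
      _ = x := by rw [ht]; group
  have h1 := hφ.coe_eq_inv_of_involutive hinv
  have h2 := hφ.commute_all_of_involutive hinv
  have htE : ∀ h ∈ (stabilizer G a ⊓ stabilizer G b : Subgroup G), t * h * t⁻¹ = h⁻¹ := by
    intro h hh
    have := congrFun h1 ⟨h, hh⟩
    exact congrArg Subtype.val this
  have hcomm : ∀ x ∈ (stabilizer G a ⊓ stabilizer G b : Subgroup G),
      ∀ y ∈ (stabilizer G a ⊓ stabilizer G b : Subgroup G), x * y = y * x := by
    intro x hx y hy
    exact congrArg Subtype.val (h2 ⟨x, hx⟩ ⟨y, hy⟩)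
  refine ⟨hcomm, ?_⟩
  intro s hsa hsb h hh
  have hst : s * t ∈ (stabilizer G a ⊓ stabilizer G b : Subgroup G) :=
    mem_E.2 ⟨by rw [mul_smul, hta, hsb], by rw [mul_smul, htb, hsa]⟩
  calc s * h * s⁻¹ = (s * t) * (t⁻¹ * h * t) * (s * t)⁻¹ := by group
    _ = (s * t) * (t * h * t⁻¹) * (s * t)⁻¹ := by rw [htinv]
    _ = (s * t) * h⁻¹ * (s * t)⁻¹ := by rw [htE h hh]
    _ = h⁻¹ := by
      rw [hcomm _ hst _ (inv_mem hh)]
      group

end Cfsg.Agent.Lib.Helper27.ZassOdd
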