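import Mathlib
import Cfsg.Agent.Lib.Helper27.ZassOdd4

set_option autoImplicit false

namespace Cfsg.Agent.Lib.Helper27.ZassOdd

open MulAction Subgroup Cfsg Cfsg.Agent.Lib.Helper3 Cfsg.Agent.Lib.Helper27.ZassEl

variable {G Ω : Type*} [Group G] [MulAction G Ω]

theorem card_stab_pair [Finite G] (hZ : IsZassenhausGroup G Ω) {a b c c' : Ω} (hab : a ≠ b)
    (hcc : c ≠ c') :
    Nat.card ↥(stabilizer G c ⊓ stabilizer G c') = Nat.card ↥(stabilizer G a ⊓ stabilizer G b) := by
  classical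
  have := Fintype.ofFinite G
  rw [← card_pair hZ hcc hcc, card_pair' hZ hab hcc hcc]

theorem hnil_of_simple [Finite G] [Fintype Ω] [IsSimpleGroup G] (hZ : IsZassenhausGroup G Ω)
    {a b : Ω} (hab : a ≠ b) (hodd : Odd (Nat.card ↥(stabilizer G a ⊓ stabilizer G b))) :
    ∀ q : ℕ, q.Prime → q ∣ Nat.card ↥(stabilizer G a ⊓ stabilizer G b) →
      ¬ ∃ N : Subgroup G, N.Normal ∧ N.index = q ^ (Nat.card G).factorization q := by
  classical
  have := Fintype.ofFinite G
  rintro q hq hqd ⟨N, hN, hidx⟩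
  have hq2 : q ≠ 2 := by
    rintro rfl
    rw [Nat.odd_iff] at hodd
    omega
  have hd0 : Nat.card ↥(stabilizer G a ⊓ stabilizer G b) ≠ 0 := Nat.card_pos.ne'
  rw [factorization_eq hZ hab q hq hq2 hqd] at hidx
  rcases hN.eq_bot_or_eq_top with h | h
  · rw [h, Subgroup.index_bot] at hidx
    have h1 := Nat.ordProj_le q hd0
    rw [← hidx, Nat.card_eq_fintype_card (α := G), card_group hZ hab] at h1
    obtain ⟨c, hca, hcb⟩ := zass_exists_third hZ hab
    have hcard3 : 2 < Fintype.card Ω := by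
      rw [Fintype.two_lt_card_iff]
      exact ⟨a, b, c, hab, Ne.symm hca, Ne.symm hcb⟩
    have hdpos : 0 < Nat.card ↥(stabilizer G a ⊓ stabilizer G b) := Nat.card_pos
    have h2 : 2 ≤ Fintype.card Ω - 1 := by omega
    nlinarith [Nat.mul_le_mul h2 (le_refl (Nat.card ↥(stabilizer G a ⊓ stabilizer G b)))]
  · rw [h, Subgroup.index_top] at hidx
    have h1 : 0 < (Nat.card ↥(stabilizer G a ⊓ stabilizer G b)).factorization q :=
      hq.factorization_pos_of_dvd hd0 hqd
    have h2 := Nat.one_lt_pow h1.ne' hq.one_lt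
    omega

section

variable [Finite G] [Fintype Ω] (hZ : IsZassenhausGroup G Ω) {a b : Ω} (hab : a ≠ b)
    (hodd : Odd (Nat.card ↥(stabilizer G a ⊓ stabilizer G b)))
    (hnil : ∀ q : ℕ, q.Prime → q ∣ Nat.card ↥(stabilizer G a ⊓ stabilizer G b) →
      ¬ ∃ N : Subgroup G, N.Normal ∧ N.index = q ^ (Nat.card G).factorization q)

include hZ hab hodd hnil

theorem eq_one_of_sq {x : G} (hx : x ∈ (stabilizer G a ⊓ stabilizer G b : Subgroup G))
    (h : x * x = 1) : x = 1 := by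
  have h5 : orderOf x ∣ 2 := orderOf_dvd_of_pow_eq_one (by rw [sq]; exact h)
  have h6 : orderOf x ∣ Nat.card ↥(stabilizer G a ⊓ stabilizer G b) := by
    have := orderOf_dvd_natCard (⟨x, hx⟩ : ↥(stabilizer G a ⊓ stabilizer G b))
    rwa [← Subgroup.orderOf_coe] at this
  have h7 : orderOf x ∣ 1 := by
    have := Nat.dvd_gcd h5 h6
    rwa [Nat.coprime_two_left.2 hodd] at this
  rwa [Nat.dvd_one, orderOf_eq_one_iff] at h7

theorem swap_sq {s : G} (hsa : s • a = b) (hsb : s • b = a) : s * s = 1 := by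
  obtain ⟨-, hinv⟩ := main hZ hab hodd hnil
  have hE : s * s ∈ (stabilizer G a ⊓ stabilizer G b : Subgroup G) :=
    mem_E.2 ⟨by rw [mul_smul, hsa, hsb], by rw [mul_smul, hsb, hsa]⟩
  have h1 := hinv s hsa hsb _ hE
  have h2 : s * (s * s) * s⁻¹ = s * s := by group
  rw [h2] at h1
  apply eq_one_of_sq hZ hab hodd hnil hE
  nth_rewrite 1 [h1]
  exact inv_mul_cancel _

theorem swap_orderOf {s : G} (hsa : s • a = b) (hsb : s • b = a) : orderOf s = 2 := by
  apply orderOf_eq_prime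
  · rw [sq]; exact swap_sq hZ hab hodd hnil hsa hsb
  · rintro rfl
    rw [one_smul] at hsa
    exact hab hsa

theorem swap_conj {s s' : G} (hsa : s • a = b) (hsb : s • b = a) (hsa' : s' • a = b)
    (hsb' : s' • b = a) : IsConj s s' := by
  obtain ⟨-, hinv⟩ := main hZ hab hodd hnil
  have hs := swap_sq hZ hab hodd hnil hsa hsb
  have hsinv : s⁻¹ = s := inv_eq_of_mul_eq_one_left hs
  have hE : s' * s ∈ (stabilizer G a ⊓ stabilizer G b : Subgroup G) :=
    mem_E.2 ⟨by rw [mul_smul, hsa, hsb'], by rw [mul_smul, hsb, hsa']⟩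
  obtain ⟨k, hk⟩ := hodd
  have hpow : (s' * s) ^ (2 * k + 1) = 1 := by
    have := pow_card_eq_one' (G := ↥(stabilizer G a ⊓ stabilizer G b)) (x := ⟨s' * s, hE⟩)
    rw [hk] at this
    exact congrArg Subtype.val this
  set f := (s' * s) ^ (k + 1) with hf
  have hfE : f ∈ (stabilizer G a ⊓ stabilizer G b : Subgroup G) := pow_mem hE _
  have hff : f * f = s' * s := by
    rw [hf, ← pow_add]
    have : k + 1 + (k + 1) = (2 * k + 1) + 1 := by ring
    rw [this, pow_succ, hpow, one_mul]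
  rw [isConj_iff]
  refine ⟨f, ?_⟩
  have h1 := hinv s hsa hsb f⁻¹ (inv_mem hfE)
  rw [inv_inv] at h1
  calc f * s * f⁻¹ = f * (s * f⁻¹ * s⁻¹) * s := by group
    _ = f * f * s := by rw [h1]
    _ = s' * (s * s) := by rw [hff]; group
    _ = s' := by rw [hs, mul_one]

end

end Cfsg.Agent.Lib.Helper27.ZassOdd
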